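import Mathlib
import Cfsg.Prelude.Def_Quasithin
import Cfsg.Agent.SignalizersComponents.ComponentExists
import Cfsg.Agent.SignalizersComponents.Components

/-!
# The `𝒞`-components of a finite group

Minimal nontrivial perfect subnormal subgroups (`Cfsg.calC`), modulo the solvable radical: they correspond to the
components of the quotient by the solvable radical.
-/

set_option autoImplicit false

open scoped commutatorElement

namespace Cfsg.Agent.QTComp.Basic

open Subgroup Cfsg
open Cfsg.Agent.SignalizersComponents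
open Cfsg.Agent.SignalizersComponents.ComponentExists
open Cfsg.Agent.SignalizersComponents.Components

universe u

section

variable {G : Type*} [Group G]

/-- A solvable perfect subgroup is trivial. -/
theorem eq_bot_of_perfect_of_solvable {P : Subgroup G} (hP : ⁅P, P⁆ = P) (hs : Group.IsSolvable P) : P = ⊥ := by
  by_contra hne
  have : Nontrivial P := (nontrivial_iff_ne_bot P).2 hne
  have : Group.IsPerfect P := isPerfect_iff.2 hP
  exact Group.IsPerfect.not_isSolvable P hs

theorem perfect_map {H : Type*} [Group H] (f : G →* H) {P : Subgroup G} (hP : ⁅P, P⁆ = P) :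
    ⁅P.map f, P.map f⁆ = P.map f := by
  rw [← map_commutator, hP]

theorem perfect_subgroupOf {P K : Subgroup G} (hP : ⁅P, P⁆ = P) (hPK : P ≤ K) :
    ⁅P.subgroupOf K, P.subgroupOf K⁆ = P.subgroupOf K := by
  apply map_injective K.subtype_injective
  rw [map_commutator, subgroupOf_map_subtype, inf_of_le_left hPK, hP]

/-- **Perfect subgroups of `L S`, `L` subnormal, `S` normal solvable, lie in `L`.** -/
theorem le_of_le_sup {L S P : Subgroup G} (hL : L.IsSubnormal) [hSn : S.Normal] (hS : Group.IsSolvable S)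
    (hP : ⁅P, P⁆ = P) (h : P ≤ L ⊔ S) : P ≤ L := by
  induction hL with
  | top => exact le_top
  | step H K h_le hSubn hN ih =>
    have hPK : P ≤ K := ih (h.trans (sup_le_sup_right h_le S))
    have hN' := hN
    set f := QuotientGroup.mk' (H.subgroupOf K) with hf
    have h1 : (P.subgroupOf K).map f ≤ ((S ⊓ K).subgroupOf K).map f := by
      rintro _ ⟨x, hx, rfl⟩
      have hx' : (x : G) ∈ P := hx
      have h2 := h hx'
      rw [← SetLike.mem_coe, mul_normal] at h2
      obtain ⟨a, ha, s, hs, hxs⟩ := h2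
      have haK : a ∈ K := h_le ha
      have hsK : s ∈ K := by
        have : s = a⁻¹ * x := by rw [← hxs]; group
        rw [this]
        exact K.mul_mem (K.inv_mem haK) x.2
      refine ⟨⟨s, hsK⟩, ?_, ?_⟩
      · exact ⟨hs, hsK⟩
      · symm
        rw [hf, QuotientGroup.mk'_apply, QuotientGroup.mk'_apply, eq_comm, QuotientGroup.eq_iff_div_mem]
        have : ((⟨s, hsK⟩ : K) / x : K) = ⟨s * (x : G)⁻¹, K.mul_mem hsK (K.inv_mem x.2)⟩ := by
          apply Subtype.ext
          rw [div_eq_mul_inv]
          rfl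
        rw [this, mem_subgroupOf]
        -- s x⁻¹ = s (a s)⁻¹ = a⁻¹ conj ...
        have h3 : s * (x : G)⁻¹ = a⁻¹ := by
          rw [← hxs]
          simp only [mul_inv_rev]
          group
        change s * (x : G)⁻¹ ∈ H
        rw [h3]
        exact H.inv_mem ha
    have h2' : Group.IsSolvable (S ⊓ K : Subgroup G) := isSolvable_of_le inf_le_left hS
    have h2 : Group.IsSolvable ((S ⊓ K).subgroupOf K) :=
      Group.isSolvable_of_surjective
        (f := (subgroupOfEquivOfLe (inf_le_right : S ⊓ K ≤ K)).symm.toMonoidHom)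
        (subgroupOfEquivOfLe (inf_le_right : S ⊓ K ≤ K)).symm.surjective
    have h3 := eq_bot_of_perfect_of_solvable (perfect_map f (perfect_subgroupOf hP hPK))
      (isSolvable_of_le h1 (isSolvable_map h2 f))
    rw [Subgroup.map_eq_bot_iff, hf, QuotientGroup.ker_mk'] at h3
    intro x hx
    exact h3 (show (⟨x, hPK hx⟩ : K) ∈ P.subgroupOf K from hx)

/-- A nonsolvable subnormal subgroup of a finite group contains a nontrivial perfect subnormal subgroup. -/
theorem exists_perfect [Finite G] {K : Subgroup G} (hK : K.IsSubnormal) (hs : ¬ Group.IsSolvable K) :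
    ∃ P : Subgroup G, P ≠ ⊥ ∧ ⁅P, P⁆ = P ∧ P.IsSubnormal ∧ P ≤ K := by
  obtain ⟨n, hn⟩ : ∃ n, derivedSeries K (n + 1) = derivedSeries K n := by
    by_contra hcon
    push Not at hcon
    have hanti : StrictAnti (derivedSeries K) := by
      apply strictAnti_nat_of_succ_lt
      intro n
      exact lt_of_le_of_ne (derivedSeries_antitone K (Nat.le_succ n)) (hcon n)
    exact not_injective_infinite_finite _ hanti.injective
  refine ⟨(derivedSeries K n).map K.subtype, ?_, ?_, ?_, map_subtype_le _⟩
  · intro h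
    apply hs
    rw [map_eq_bot_iff_of_injective _ K.subtype_injective] at h
    exact ⟨n, h⟩
  · rw [← map_commutator, ← derivedSeries_succ, hn]
  · exact IsSubnormal.trans' (derivedSeries_normal K n).isSubnormal hK

theorem mem_calC {L : Subgroup G} : L ∈ calC G ↔ L ≠ ⊥ ∧ ⁅L, L⁆ = L ∧ L.IsSubnormal ∧
    ∀ K : Subgroup G, K < L → ¬ (K ≠ ⊥ ∧ ⁅K, K⁆ = K ∧ K.IsSubnormal) := Iff.rfl

theorem calC_ne_bot {L : Subgroup G} (hL : L ∈ calC G) : L ≠ ⊥ := hL.1
theorem calC_perfect {L : Subgroup G} (hL : L ∈ calC G) : ⁅L, L⁆ = L := hL.2.1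
theorem calC_subnormal {L : Subgroup G} (hL : L ∈ calC G) : L.IsSubnormal := hL.2.2.1

/-- A proper subgroup of a `𝒞`-component which is subnormal in the whole group is solvable. -/
theorem calC_solvable_of_lt [Finite G] {L N : Subgroup G} (hL : L ∈ calC G) (hN : N.IsSubnormal) (hlt : N < L) :
    Group.IsSolvable N := by
  by_contra hs
  obtain ⟨P, h1, h2, h3, h4⟩ := exists_perfect hN hs
  exact hL.2.2.2 P (lt_of_le_of_lt h4 hlt) ⟨h1, h2, h3⟩

theorem calC_eq_of_le [Finite G] {L M : Subgroup G} (hL : L ∈ calC G) (hM : M ≠ ⊥) (hMp : ⁅M, M⁆ = M)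
    (hMs : M.IsSubnormal) (h : M ≤ L) : M = L := by
  by_contra hne
  exact hL.2.2.2 M (lt_of_le_of_ne h hne) ⟨hM, hMp, hMs⟩

/-- A nonsolvable subnormal subgroup contains a `𝒞`-component. -/
theorem exists_calC_le [Finite G] {K : Subgroup G} (hK : K.IsSubnormal) (hs : ¬ Group.IsSolvable K) :
    ∃ L ∈ calC G, L ≤ K := by
  obtain ⟨P, h1, h2, h3, h4⟩ := exists_perfect hK hs
  obtain ⟨M, hM⟩ := Set.Finite.exists_minimal
    (s := {M : Subgroup G | M ≠ ⊥ ∧ ⁅M, M⁆ = M ∧ M.IsSubnormal ∧ M ≤ P}) (Set.toFinite _)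
    ⟨P, h1, h2, h3, le_rfl⟩
  refine ⟨M, ⟨hM.prop.1, hM.prop.2.1, hM.prop.2.2.1, ?_⟩, hM.prop.2.2.2.trans h4⟩
  rintro K hKM ⟨h5, h6, h7⟩
  have := hM.le_of_le (show K ∈ {M : Subgroup G | M ≠ ⊥ ∧ ⁅M, M⁆ = M ∧ M.IsSubnormal ∧ M ≤ P} from
    ⟨h5, h6, h7, hKM.le.trans hM.prop.2.2.2⟩) hKM.le
  exact absurd hKM (not_lt_of_ge this)

/-- Conjugates of `𝒞`-components are `𝒞`-components. -/
theorem calC_map_equiv {H : Type*} [Group H] (e : G ≃* H) {L : Subgroup G} (hL : L ∈ calC G) :
    L.map e.toMonoidHom ∈ calC H := by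
  refine ⟨?_, perfect_map _ hL.2.1, hL.2.2.1.map e.surjective, ?_⟩
  · intro h
    rw [map_eq_bot_iff_of_injective _ e.injective] at h
    exact hL.1 h
  · rintro K hK ⟨h1, h2, h3⟩
    have h4 : (K.map e.symm.toMonoidHom).map e.toMonoidHom = K := by
      rw [map_map]
      convert map_id K
      ext x
      simp
    refine hL.2.2.2 (K.map e.symm.toMonoidHom) ?_ ⟨?_, perfect_map _ h2, h3.map e.symm.surjective⟩
    · rw [← map_lt_map_iff_of_injective (f := e.toMonoidHom) e.injective, h4]
      exact hK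
    · intro h
      rw [map_eq_bot_iff_of_injective _ e.symm.injective] at h
      exact h1 h

theorem calC_conj (g : G) {L : Subgroup G} (hL : L ∈ calC G) : L.map (MulAut.conj g).toMonoidHom ∈ calC G :=
  calC_map_equiv (MulAut.conj g) hL

/-- Distinct `𝒞`-components remain distinct modulo a solvable normal subgroup. -/
theorem calC_eq_of_le_sup [Finite G] {L M S : Subgroup G} [S.Normal] (hS : Group.IsSolvable S)
    (hL : L ∈ calC G) (hM : M ∈ calC G) (h : L ≤ M ⊔ S) : L = M :=
  calC_eq_of_le hM hL.1 hL.2.1 hL.2.2.1 (le_of_le_sup hM.2.2.1 hS hL.2.1 h)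

/-- `R` is the solvable radical. -/
structure IsRad (R : Subgroup G) : Prop where
  char : R.Characteristic
  solv : Group.IsSolvable R
  le : ∀ N : Subgroup G, N.Normal → Group.IsSolvable N → N ≤ R

theorem exists_isRad (G : Type*) [Group G] [Finite G] : ∃ R : Subgroup G, IsRad R := by
  obtain ⟨R, h1, h2, h3⟩ := exists_solvableRadical G
  exact ⟨R, h1, h2, h3⟩

theorem IsRad.normal {R : Subgroup G} (hR : IsRad R) : R.Normal := by
  have := hR.char
  infer_instance

theorem IsRad.le_of_subnormal [Finite G] {R : Subgroup G} (hR : IsRad R) {N : Subgroup G} (hN : N.IsSubnormal)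
    (hs : Group.IsSolvable N) : N ≤ R := by
  obtain ⟨M, h1, h2, h3⟩ := exists_normal_isSolvable_of_isSubnormal hN hs
  exact h3.trans (hR.le M h1 h2)

/-- The solvable radical of the quotient by the solvable radical is trivial. -/
theorem IsRad.eq_bot_of_subnormal [Finite G] {R : Subgroup G} (hR : IsRad R) [R.Normal] {N : Subgroup (G ⧸ R)}
    (hN : N.IsSubnormal) (hs : Group.IsSolvable N) : N = ⊥ := by
  have h1 : (N.comap (QuotientGroup.mk' R)).IsSubnormal := hN.comap _
  have h2 : Group.IsSolvable (N.comap (QuotientGroup.mk' R)) := by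
    set K := N.comap (QuotientGroup.mk' R) with hK
    have hRK : R ≤ K := by
      intro x hx
      rw [hK, mem_comap, QuotientGroup.mk'_apply, (QuotientGroup.eq_one_iff x).2 hx]
      exact one_mem _
    have h3 : Group.IsSolvable (R.subgroupOf K) := by
      have := hR.solv
      exact Group.isSolvable_of_surjective (f := (subgroupOfEquivOfLe hRK).symm.toMonoidHom)
        (subgroupOfEquivOfLe hRK).symm.surjective
    refine Group.isSolvable_of_ker_le_range (R.subgroupOf K).subtype ((QuotientGroup.mk' R).subgroupComap N) ?_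
    intro x hx
    rw [range_subtype, mem_subgroupOf]
    have h4 := congrArg Subtype.val (MonoidHom.mem_ker.1 hx)
    exact (QuotientGroup.eq_one_iff (x : G)).1 h4
  have h3 := hR.le_of_subnormal h1 h2
  rw [eq_bot_iff]
  intro x hx
  obtain ⟨y, rfl⟩ := QuotientGroup.mk'_surjective R x
  have : y ∈ R := h3 hx
  exact (QuotientGroup.eq_one_iff y).2 this

/-- The image of a `𝒞`-component modulo the solvable radical is simple. -/
theorem map_simple [Finite G] {R : Subgroup G} (hR : IsRad R) [R.Normal] {L : Subgroup G} (hL : L ∈ calC G) :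
    IsSimpleGroup (L.map (QuotientGroup.mk' R)) := by
  set π := QuotientGroup.mk' R with hπ
  have hne : L.map π ≠ ⊥ := by
    intro h
    rw [Subgroup.map_eq_bot_iff, hπ, QuotientGroup.ker_mk'] at h
    exact hL.1 (eq_bot_of_perfect_of_solvable hL.2.1 (isSolvable_of_le h hR.solv))
  have hnt : Nontrivial (L.map π) := (nontrivial_iff_ne_bot _).2 hne
  refine ⟨fun N hN => ?_⟩
  by_cases htop : N = ⊤
  · exact Or.inr htop
  left
  -- the preimage of `N` in `L`
  set M : Subgroup G := (N.map (L.map π).subtype).comap π ⊓ L with hM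
  have hNs : (N.map (L.map π).subtype).IsSubnormal :=
    IsSubnormal.trans' hN.isSubnormal (hL.2.2.1.map (QuotientGroup.mk'_surjective R))
  have hMs : M.IsSubnormal := (hNs.comap π).inf hL.2.2.1
  have hMlt : M < L := by
    refine lt_of_le_of_ne inf_le_right fun h => htop ?_
    rw [eq_top_iff]
    rintro ⟨_, x, hx, rfl⟩ -
    have h1 : x ∈ M := by rw [h]; exact hx
    obtain ⟨y, hy, hyx⟩ := h1.1
    have : y = ⟨π x, ⟨x, hx, rfl⟩⟩ := Subtype.ext hyx
    rw [← this]
    exact hy
  have hMsol := calC_solvable_of_lt hL hMs hMlt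
  have hMR := hR.le_of_subnormal hMs hMsol
  rw [eq_bot_iff]
  rintro ⟨_, x, hx, rfl⟩ hxN
  have h1 : x ∈ M := ⟨⟨_, hxN, rfl⟩, hx⟩
  have h2 : π x = 1 := (QuotientGroup.eq_one_iff x).2 (hMR h1)
  rw [mem_bot]
  exact Subtype.ext h2

theorem not_comm_of_perfect {K : Subgroup G} (hne : K ≠ ⊥) (hK : ⁅K, K⁆ = K) : ¬ IsMulCommutative K := by
  intro h
  have h1 : ⁅K, K⁆ = ⊥ := by
    rw [commutator_eq_bot_iff_le_centralizer]
    intro x hx
    rw [mem_centralizer_iff]
    intro y hy
    exact congrArg Subtype.val (h.is_comm.comm (⟨y, hy⟩ : K) ⟨x, hx⟩)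
  exact hne (hK.symm.trans h1)

theorem isQuasisimple_of_simple {K : Subgroup G} [hs : IsSimpleGroup K] (hK : ⁅K, K⁆ = K) : IsQuasisimple K := by
  have hp : Group.IsPerfect K := isPerfect_iff.2 hK
  refine ⟨hp, ?_⟩
  have hc : center K = ⊥ := by
    rcases (inferInstance : (center K).Normal).eq_bot_or_eq_top with h | h
    · exact h
    · exfalso
      have : IsMulCommutative K := ⟨⟨fun a b => by
        have : b ∈ center K := by rw [h]; exact mem_top b
        exact (mem_center_iff.1 this) a⟩⟩
      exact Group.IsPerfect.not_isMulCommutative K this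
  have e : K ⧸ center K ≃* K := (QuotientGroup.quotientMulEquivOfEq hc).trans QuotientGroup.quotientBot
  exact e.isSimpleGroup

/-- The image of a `𝒞`-component modulo the solvable radical is a component. -/
theorem map_isComponent [Finite G] {R : Subgroup G} (hR : IsRad R) [R.Normal] {L : Subgroup G} (hL : L ∈ calC G) :
    IsComponent (L.map (QuotientGroup.mk' R)) := by
  have := map_simple hR hL
  exact ⟨hL.2.2.1.map (QuotientGroup.mk'_surjective R), isQuasisimple_of_simple (perfect_map _ hL.2.1)⟩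

theorem le_sup_of_map_le {R L M : Subgroup G} [R.Normal] (h : L.map (QuotientGroup.mk' R) ≤ M.map (QuotientGroup.mk' R)) :
    L ≤ M ⊔ R := by
  have h1 := (map_le_iff_le_comap.1 h)
  rwa [comap_map_eq, QuotientGroup.ker_mk'] at h1

theorem map_inj_calC [Finite G] {R : Subgroup G} (hR : IsRad R) [R.Normal] {L M : Subgroup G} (hL : L ∈ calC G)
    (hM : M ∈ calC G) (h : L.map (QuotientGroup.mk' R) = M.map (QuotientGroup.mk' R)) : L = M :=
  calC_eq_of_le_sup hR.solv hL hM (le_sup_of_map_le h.le)

/-- Every component modulo the solvable radical is the image of a `𝒞`-component. -/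
theorem exists_calC_map [Finite G] {R : Subgroup G} (hR : IsRad R) [R.Normal] {K : Subgroup (G ⧸ R)}
    (hK : IsComponent K) : ∃ L ∈ calC G, L.map (QuotientGroup.mk' R) = K := by
  set π := QuotientGroup.mk' R with hπ
  have hns : ¬ Group.IsSolvable (K.comap π) := by
    intro h
    have h1 := isSolvable_map h π
    rw [map_comap_eq_self_of_surjective (QuotientGroup.mk'_surjective R)] at h1
    exact quasisimple_not_isSolvable hK.2 h1
  obtain ⟨L, hL, hLK⟩ := exists_calC_le (hK.1.comap π) hns
  refine ⟨L, hL, ?_⟩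
  have h1 : L.map π ≤ K := map_le_iff_le_comap.2 hLK
  have h2 : ((L.map π).subgroupOf K).IsSubnormal := (hL.2.2.1.map (QuotientGroup.mk'_surjective R)).subgroupOf
  rcases quasisimple_subnormal hK.2 h2 with h3 | h3
  · exact le_antisymm h1 (subgroupOf_eq_top.1 h3)
  · exfalso
    have h4 := (map_isComponent hR hL)
    apply quasisimple_not_isSolvable h4.2
    have h6 : Group.IsSolvable (center K) := Group.isSolvable_of_comm fun a b =>
      Subtype.ext (mem_center_iff.1 b.2 a)
    have h5 : Group.IsSolvable ((L.map π).subgroupOf K) := isSolvable_of_le h3 h6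
    exact Group.isSolvable_of_surjective (f := (subgroupOfEquivOfLe h1).toMonoidHom)
      (subgroupOfEquivOfLe h1).surjective

/-- Distinct `𝒞`-components normalise each other. -/
theorem le_normalizer_of_ne [Finite G] {L M : Subgroup G} (hL : L ∈ calC G) (hM : M ∈ calC G) (hne : L ≠ M) :
    L ≤ normalizer (M : Set G) := by
  obtain ⟨R, hR⟩ := exists_isRad G
  have := hR.normal
  have hne' : L.map (QuotientGroup.mk' R) ≠ M.map (QuotientGroup.mk' R) := fun h => hne (map_inj_calC hR hL hM h)
  have hc := component_commutator_eq_bot_of_ne (map_isComponent hR hL) (map_isComponent hR hM) hne'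
  intro x hx
  have h1 : M.map (MulAut.conj x).toMonoidHom = M := by
    apply map_inj_calC hR (calC_conj x hM) hM
    rw [map_map]
    have h2 : ∀ y ∈ M, QuotientGroup.mk' R ((MulAut.conj x) y) = QuotientGroup.mk' R y := by
      intro y hy
      have h3 : ⁅QuotientGroup.mk' R x, QuotientGroup.mk' R y⁆ = 1 := by
        have := commutator_mem_commutator (mem_map_of_mem (QuotientGroup.mk' R) hx)
          (mem_map_of_mem (QuotientGroup.mk' R) hy)
        rwa [hc, mem_bot] at this
      rw [MulAut.conj_apply, map_mul, map_mul, map_inv]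
      rw [commutatorElement_eq_one_iff_mul_comm] at h3
      rw [h3, mul_inv_cancel_right]
    ext z
    constructor
    · rintro ⟨y, hy, rfl⟩
      exact ⟨y, hy, (h2 y hy).symm⟩
    · rintro ⟨y, hy, rfl⟩
      exact ⟨y, hy, h2 y hy⟩
  rw [mem_normalizer_iff]
  intro y
  constructor
  · intro hy
    rw [← h1]
    exact ⟨y, hy, rfl⟩
  · intro hy
    rw [← h1] at hy
    obtain ⟨z, hz, hzy⟩ := hy
    have : z = y := by
      apply (MulAut.conj x).injective
      exact hzy
    rw [← this]
    exact hz

/-- the commutator of distinct `𝒞`-components is solvable -/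
theorem commutator_le_inf_of_ne [Finite G] {L M : Subgroup G} (hL : L ∈ calC G) (hM : M ∈ calC G) (hne : L ≠ M) :
    ⁅L, M⁆ ≤ L ⊓ M := by
  refine le_inf ?_ ?_
  · rw [← le_normalizer_iff_commutator_le_left]
    exact le_normalizer_of_ne hM hL (Ne.symm hne)
  · rw [← le_normalizer_iff_commutator_le_right]
    exact le_normalizer_of_ne hL hM hne

theorem inf_solvable_of_ne [Finite G] {L M : Subgroup G} (hL : L ∈ calC G) (hM : M ∈ calC G) (hne : L ≠ M) :
    Group.IsSolvable (L ⊓ M : Subgroup G) := by
  refine calC_solvable_of_lt hL (hL.2.2.1.inf hM.2.2.1) (lt_of_le_of_ne inf_le_left fun h => hne ?_)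
  have h1 : L ≤ M := by rw [← h]; exact inf_le_right
  exact calC_eq_of_le hM hL.1 hL.2.1 hL.2.2.1 h1

end

end Cfsg.Agent.QTComp.Basic
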