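import Mathlib
import Cfsg.Agent.S0016
import Cfsg.Agent.S0219
import Cfsg.Agent.SignalizersComponents.ComponentExists
import Cfsg.Agent.Lib.SylowNormalInf

/-!
# Perfect groups with few involutions

A finite group with at most one involution is not the product of two perfect nontrivial normal subgroups with solvable
intersection.
-/

set_option autoImplicit false

open scoped commutatorElement

namespace Cfsg.Agent.QTComp.Quat

open Subgroup
open Cfsg.Agent.SignalizersComponents.ComponentExists

universe u

/-- The odd order theorem. -/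
def FT : Prop := ∀ (X : Type u) [Group X] [Finite X], Odd (Nat.card X) → Group.IsSolvable X

/-- A perfect group with a cyclic Sylow 2-subgroup is trivial. -/
theorem subsingleton_of_cyclic (hFT : FT.{u}) {X : Type u} [Group X] [Finite X] (hX : commutator X = ⊤)
    (S : Sylow 2 X) (hS : IsCyclic S) : Subsingleton X := by
  by_contra hns
  rw [not_subsingleton_iff_nontrivial] at hns
  have hp : Group.IsPerfect X := ⟨hX⟩
  have hsol : ¬ Group.IsSolvable X := Group.IsPerfect.not_isSolvable X
  have heven : Even (Nat.card X) := by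
    rw [← Nat.not_odd_iff_even]
    exact fun h => hsol (hFT X h)
  obtain ⟨N, hN⟩ := Cfsg.Agent.S0219.result (G := X) heven S hS
  have hNn : N.Normal := normal_of_index_eq_two hN
  have h1 : Nat.card (X ⧸ N) = 2 := hN
  have h2 : commutator X ≤ N := by
    have : Fact (Nat.Prime 2) := ⟨Nat.prime_two⟩
    have hc : IsCyclic (X ⧸ N) := isCyclic_of_prime_card h1
    rw [commutator_def, commutator_le]
    intro a _ b _
    rw [← QuotientGroup.eq_one_iff]
    have : ((⁅a, b⁆ : X) : X ⧸ N) = ⁅(a : X ⧸ N), (b : X ⧸ N)⁆ := rfl
    rw [this, commutatorElement_eq_one_iff_mul_comm]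
    exact hc.isMulCommutative.is_comm.comm _ _
  rw [hX, top_le_iff] at h2
  rw [h2, index_top] at hN
  exact absurd hN (by norm_num)

theorem a_zpow {n : ℕ} (k : ℤ) : (QuaternionGroup.a 1 : QuaternionGroup n) ^ k = QuaternionGroup.a (k : ZMod (2 * n)) := by
  rcases k with k | k
  · simp
  · rw [zpow_negSucc, inv_eq_iff_mul_eq_one, QuaternionGroup.a_one_pow, QuaternionGroup.a_mul_a,
      QuaternionGroup.one_def]
    congr 1
    push_cast
    ring

/-- A noncyclic normal subgroup of a generalized quaternion group has index at most 2. -/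
theorem card_quotient_le {n : ℕ} (N : Subgroup (QuaternionGroup n)) [hNn : N.Normal] (hN : ¬ IsCyclic N) :
    Nat.card (QuaternionGroup n ⧸ N) ≤ 2 := by
  -- `N` contains some `xa i`
  obtain ⟨i, hi⟩ : ∃ i, QuaternionGroup.xa i ∈ N := by
    by_contra hcon
    push Not at hcon
    apply hN
    have hle : N ≤ zpowers (QuaternionGroup.a 1) := by
      intro g hg
      rcases g with i | i
      · rw [mem_zpowers_iff]
        obtain ⟨k, rfl⟩ := ZMod.intCast_surjective i
        exact ⟨k, a_zpow k⟩
      · exact absurd hg (hcon i)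
    exact isCyclic_of_injective (inclusion hle) (inclusion_injective hle)
  have h1 : QuaternionGroup.xa (i - 2) ∈ N := by
    have h3 := hNn.conj_mem _ hi (QuaternionGroup.a 1)
    have h4 : QuaternionGroup.a 1 * QuaternionGroup.xa i * (QuaternionGroup.a 1)⁻¹ = QuaternionGroup.xa (i - 2) := by
      rw [mul_inv_eq_iff_eq_mul, QuaternionGroup.a_mul_xa, QuaternionGroup.xa_mul_a]
      congr 1
      ring
    rwa [h4] at h3
  have h2 : QuaternionGroup.a 2 ∈ N := by
    have h3 := N.mul_mem hi h1
    have h4 := N.mul_mem hi hi
    have h5 := N.mul_mem (N.inv_mem h3) h4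
    have h6 : (QuaternionGroup.xa i * QuaternionGroup.xa (i - 2))⁻¹ * (QuaternionGroup.xa i * QuaternionGroup.xa i)
        = (QuaternionGroup.a 2 : QuaternionGroup n) := by
      rw [inv_mul_eq_iff_eq_mul, QuaternionGroup.xa_mul_xa, QuaternionGroup.xa_mul_xa, QuaternionGroup.a_mul_a]
      congr 1
      ring
    rwa [h6] at h5
  set q : QuaternionGroup n ⧸ N := QuotientGroup.mk (QuaternionGroup.a 1) with hq
  have hq2 : q ^ (2 : ℤ) = 1 := by
    have h3 : ((QuaternionGroup.a 1 ^ (2 : ℤ) : QuaternionGroup n) : QuaternionGroup n ⧸ N) = 1 := by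
      rw [a_zpow, QuotientGroup.eq_one_iff]
      exact_mod_cast h2
    exact h3
  have hcl : ∀ m : ZMod (2 * n), (QuotientGroup.mk (QuaternionGroup.a m) : QuaternionGroup n ⧸ N) = 1 ∨
      (QuotientGroup.mk (QuaternionGroup.a m) : QuaternionGroup n ⧸ N) = q := by
    intro m
    obtain ⟨k, rfl⟩ := ZMod.intCast_surjective m
    have h3 : (QuotientGroup.mk (QuaternionGroup.a ((k : ℤ) : ZMod (2 * n))) : QuaternionGroup n ⧸ N) = q ^ k := by
      rw [← a_zpow]
      rfl
    rw [h3]
    obtain ⟨j, hj | hj⟩ := Int.even_or_odd' k
    · left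
      rw [hj, zpow_mul, hq2, one_zpow]
    · right
      rw [hj, zpow_add, zpow_mul, hq2, one_zpow, one_mul, zpow_one]
  have hsurj : Function.Surjective (fun b : Bool => if b then q else (1 : QuaternionGroup n ⧸ N)) := by
    intro x
    induction x using QuotientGroup.induction_on with
    | H g =>
      have h4 : (g : QuaternionGroup n ⧸ N) = 1 ∨ (g : QuaternionGroup n ⧸ N) = q := by
        rcases g with m | m
        · exact hcl m
        · have h5 : (QuaternionGroup.xa m : QuaternionGroup n) = QuaternionGroup.xa i * QuaternionGroup.a (m - i) := by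
            rw [QuaternionGroup.xa_mul_a]
            congr 1
            ring
          have h6 : ((QuaternionGroup.xa m : QuaternionGroup n) : QuaternionGroup n ⧸ N) =
              ((QuaternionGroup.a (m - i) : QuaternionGroup n) : QuaternionGroup n ⧸ N) := by
            rw [h5]
            have h7 : ((QuaternionGroup.xa i : QuaternionGroup n) : QuaternionGroup n ⧸ N) = 1 :=
              (QuotientGroup.eq_one_iff _).2 hi
            rw [QuotientGroup.mk_mul, h7, one_mul]
          rw [h6]
          exact hcl _
      rcases h4 with h4 | h4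
      · exact ⟨false, by simp [h4]⟩
      · exact ⟨true, by simp [h4]⟩
  calc Nat.card (QuaternionGroup n ⧸ N) ≤ Nat.card Bool := Nat.card_le_card_of_surjective _ hsurj
    _ = 2 := by simp

/-- A perfect group of order `m` or `2 m`, `m` odd, is trivial. -/
theorem subsingleton_of_not_four_dvd (hFT : FT.{u}) {X : Type u} [Group X] [Finite X] (hX : commutator X = ⊤)
    (h4 : ¬ 4 ∣ Nat.card X) : Subsingleton X := by
  have : Fact (Nat.Prime 2) := ⟨Nat.prime_two⟩
  obtain ⟨S⟩ : Nonempty (Sylow 2 X) := inferInstance
  refine subsingleton_of_cyclic hFT hX S ?_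
  obtain ⟨k, hk⟩ := IsPGroup.iff_card.1 S.isPGroup'
  have hk2 : k < 2 := by
    by_contra hge
    apply h4
    have h5 : 2 ^ 2 ∣ Nat.card S := by rw [hk]; exact pow_dvd_pow 2 (by omega)
    have h6 := h5.trans (S : Subgroup X).card_subgroup_dvd_card
    norm_num at h6
    exact h6
  interval_cases k
  · have : Subsingleton S := by
      rw [← Finite.card_le_one_iff_subsingleton, hk]
      norm_num
    exact isCyclic_of_subsingleton
  · exact isCyclic_of_prime_card (p := 2) (by rw [hk]; norm_num)

/-- **A finite group with at most one involution is not a product of two nontrivial perfect subgroups, the first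
normal, with solvable intersection.** -/
theorem false_of_quat (hFT : FT.{u}) {W : Type u} [Group W] [Finite W]
    (hinv : ∀ x y : W, x ≠ 1 → y ≠ 1 → x * x = 1 → y * y = 1 → x = y) (W₁ W₂ : Subgroup W) [W₁.Normal]
    (h1 : ⁅W₁, W₁⁆ = W₁) (h2 : ⁅W₂, W₂⁆ = W₂) (hne1 : W₁ ≠ ⊥) (hne2 : W₂ ≠ ⊥) (hsup : W₁ ⊔ W₂ = ⊤)
    (hinf : Group.IsSolvable (W₁ ⊓ W₂ : Subgroup W)) : False := by
  have : Fact (Nat.Prime 2) := ⟨Nat.prime_two⟩
  have hW : commutator W = ⊤ := by
    rw [eq_top_iff, ← hsup, commutator_def]
    refine sup_le ?_ ?_
    · rw [← h1]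
      exact commutator_mono le_top le_top
    · rw [← h2]
      exact commutator_mono le_top le_top
  obtain ⟨T⟩ : Nonempty (Sylow 2 W) := inferInstance
  rcases Cfsg.Agent.S0016.result (G := T) 2 T.isPGroup' (by
    intro H K hH hK
    have key : ∀ A : Subgroup T, Nat.card A = 2 → ∃ x : T, x ≠ 1 ∧ x * x = 1 ∧ A = zpowers x := by
      intro A hA
      have hAc : IsCyclic A := isCyclic_of_prime_card hA
      obtain ⟨g, hg⟩ := hAc.exists_generator
      have hord : orderOf g = 2 := (orderOf_eq_card_of_forall_mem_zpowers hg).trans hA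
      refine ⟨g, ?_, ?_, ?_⟩
      · intro h
        have h3 : g = 1 := Subtype.ext h
        rw [h3, orderOf_one] at hord
        exact absurd hord (by norm_num)
      · have h3 : g ^ 2 = 1 := orderOf_dvd_iff_pow_eq_one.1 (by rw [hord])
        rw [pow_two] at h3
        exact congrArg Subtype.val h3
      · apply le_antisymm
        · intro y hy
          obtain ⟨k, hk⟩ := hg ⟨y, hy⟩
          exact ⟨k, congrArg Subtype.val hk⟩
        · rw [zpowers_le]
          exact g.2
    obtain ⟨x, hx1, hx2, rfl⟩ := key H hH
    obtain ⟨y, hy1, hy2, rfl⟩ := key K hK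
    have hxy : x = y := by
      apply Subtype.ext
      apply hinv
      · exact fun h => hx1 (Subtype.ext h)
      · exact fun h => hy1 (Subtype.ext h)
      · exact congrArg Subtype.val hx2
      · exact congrArg Subtype.val hy2
    rw [hxy]) with hc | ⟨-, n, ⟨e⟩⟩
  · have h3 := subsingleton_of_cyclic hFT hW T hc
    exact hne1 (Subsingleton.elim _ _)
  · set T₁ : Subgroup T := W₁.subgroupOf T with hT₁
    set N := T₁.map e.toMonoidHom with hN
    have hNn : N.Normal := (inferInstance : T₁.Normal).map _ e.surjective
    have hcN : ¬ IsCyclic N := by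
      intro hc
      -- the Sylow 2-subgroup of `W₁` is cyclic
      have hc1 : IsCyclic T₁ :=
        isCyclic_of_injective (e.toMonoidHom.subgroupMap T₁) (by
          intro a b hab
          apply Subtype.ext
          exact e.injective (congrArg Subtype.val hab))
      let P : Sylow 2 W₁ := ((Cfsg.Agent.Lib.SylowNormalInf.isPGroup_subgroupOf T W₁).toSylow
        (Cfsg.Agent.Lib.SylowNormalInf.not_dvd_relIndex T W₁))
      have hPc : IsCyclic P := by
        let f : ↥((T : Subgroup W).subgroupOf W₁) →* T₁ :=
          { toFun := fun x => ⟨⟨(x : W₁), x.2⟩, (x : W₁).2⟩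
            map_one' := rfl
            map_mul' := fun _ _ => rfl }
        have hf : Function.Injective f := by
          intro a b hab
          apply Subtype.ext
          apply Subtype.ext
          exact congrArg (fun z : T₁ => ((z : T) : W)) hab
        exact isCyclic_of_injective f hf
      have h5 : commutator W₁ = ⊤ := by
        have : Group.IsPerfect W₁ := isPerfect_iff.2 h1
        exact this.commutator_eq_top
      have h6 := subsingleton_of_cyclic hFT h5 P hPc
      apply hne1
      rw [eq_bot_iff]
      intro x hx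
      have := congrArg Subtype.val (h6.elim (⟨x, hx⟩ : W₁) 1)
      exact this
    have hle := card_quotient_le N hcN
    -- the index of `T₁` in `T`
    have hidx : T₁.index ≤ 2 := by
      have h3 : N.index = T₁.index := by
        rw [hN]
        exact index_map_equiv T₁ e
      rw [← h3]
      exact hle
    have h4 : ¬ 4 ∣ Nat.card (W ⧸ W₁) := by
      intro h4
      let P := T.mapSurjective (f := QuotientGroup.mk' W₁) (QuotientGroup.mk'_surjective W₁)
      have hP : Nat.card P = T₁.index := by
        have h5 : Nat.card ((T : Subgroup W).map (QuotientGroup.mk' W₁)) = T₁.index := by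
          rw [← relIndex_ker, QuotientGroup.ker_mk']
          rfl
        exact h5
      have h6 : 4 ∣ Nat.card P := by
        have h7 := P.card_eq_multiplicity
        rw [h7]
        have h8 : 2 ≤ (Nat.card (W ⧸ W₁)).factorization 2 := by
          rw [← Nat.Prime.pow_dvd_iff_le_factorization Nat.prime_two Nat.card_pos.ne']
          exact h4
        exact (pow_dvd_pow 2 h8)
      rw [hP] at h6
      have h7 : 0 < T₁.index := Nat.pos_of_ne_zero index_ne_zero_of_finite
      have := Nat.le_of_dvd h7 h6
      omega
    have h5 : commutator (W ⧸ W₁) = ⊤ := by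
      have : Group.IsPerfect W := ⟨hW⟩
      exact (inferInstance : Group.IsPerfect (W ⧸ W₁)).commutator_eq_top
    have h6 := subsingleton_of_not_four_dvd hFT h5 h4
    have h7 : W₁ = ⊤ := by
      rw [eq_top_iff]
      intro x _
      exact (QuotientGroup.eq_one_iff x).1 (h6.elim _ _)
    rw [h7, top_inf_eq] at hinf
    have h8 : Nontrivial W₂ := (nontrivial_iff_ne_bot W₂).2 hne2
    have h9 : Group.IsPerfect W₂ := isPerfect_iff.2 h2
    exact Group.IsPerfect.not_isSolvable W₂ hinf

end Cfsg.Agent.QTComp.Quat
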