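import Cfsg.Agent.Mrg.Omega.Sec.Faithful
import Cfsg.Agent.QTComp.Basic
import Cfsg.Agent.QTComp.Quat
import Cfsg.Agent.Lib.Cores

/-!
# Perfect groups acting on a `p`-group of rank at most 2

If `Y = L M` with `L`, `M` normal perfect, `L ∩ M` solvable, `m_p(Y) ≤ 2`, `p` odd, then `L` or `M` centralises each
normal `p`-subgroup of `Y`.
-/

set_option autoImplicit false

open scoped commutatorElement

namespace Cfsg.Agent.QTComp.Act

open Subgroup
open Cfsg.Agent.SignalizersComponents.ComponentExists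
open Cfsg.Agent.Omega.Sec.Faithful (act act_of fix_of_act_eq_one prankLE_subgroup)

universe u

/-- There is at most one involution of determinant 1 in `GL(n, p)`, `n ≤ 2`, `p` odd. -/
theorem eq_of_sq_eq_one {p : ℕ} [hp : Fact p.Prime] (hp2 : p ≠ 2) {n : ℕ} (hn : n ≤ 2)
    (A B : GL (Fin n) (ZMod p)) (hA : A * A = 1) (hdA : Matrix.GeneralLinearGroup.det A = 1) (hA1 : A ≠ 1)
    (hB : B * B = 1) (hdB : Matrix.GeneralLinearGroup.det B = 1) (hB1 : B ≠ 1) : A = B := by
  have hF : (2 : ZMod p) ≠ 0 := by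
    intro h
    have h3 : ((2 : ℕ) : ZMod p) = 0 := by exact_mod_cast h
    rw [ZMod.natCast_eq_zero_iff] at h3
    exact hp2 ((Nat.prime_dvd_prime_iff_eq hp.out Nat.prime_two).mp h3)
  interval_cases n
  · exact absurd (Subsingleton.elim _ _) hA1
  · exfalso
    apply hA1
    apply Units.ext
    ext i j
    fin_cases i
    fin_cases j
    have hd := congrArg Units.val hdA
    simpa [Matrix.GeneralLinearGroup.det] using hd
  · have key : ∀ M : GL (Fin 2) (ZMod p), M * M = 1 → Matrix.GeneralLinearGroup.det M = 1 → M ≠ 1 →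
        (M : Matrix (Fin 2) (Fin 2) (ZMod p)) = !![-1, 0; 0, -1] := by
      intro M h2 hdet hM1
      have hm : (M : Matrix (Fin 2) (Fin 2) (ZMod p)) * (M : Matrix (Fin 2) (Fin 2) (ZMod p)) = 1 := by
        have := congrArg Units.val h2
        exact this
      have hd : (M : Matrix (Fin 2) (Fin 2) (ZMod p)).det = 1 := by
        have := congrArg Units.val hdet
        exact this
      set m : Matrix (Fin 2) (Fin 2) (ZMod p) := (M : Matrix (Fin 2) (Fin 2) (ZMod p)) with hmdef
      rw [Matrix.det_fin_two] at hd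
      have e00 : m 0 0 * m 0 0 + m 0 1 * m 1 0 = 1 := by
        have := congrFun (congrFun hm 0) 0
        simpa [Matrix.mul_apply, Fin.sum_univ_two] using this
      have e01 : m 0 0 * m 0 1 + m 0 1 * m 1 1 = 0 := by
        have := congrFun (congrFun hm 0) 1
        simpa [Matrix.mul_apply, Fin.sum_univ_two] using this
      have e10 : m 1 0 * m 0 0 + m 1 1 * m 1 0 = 0 := by
        have := congrFun (congrFun hm 1) 0
        simpa [Matrix.mul_apply, Fin.sum_univ_two] using this
      have hs : m 0 0 * (m 0 0 + m 1 1) = 2 := by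
        linear_combination e00 + hd
      have hs0 : m 0 0 + m 1 1 ≠ 0 := by
        intro h
        rw [h, mul_zero] at hs
        exact hF hs.symm
      have h01 : m 0 1 = 0 := by
        have : m 0 1 * (m 0 0 + m 1 1) = 0 := by linear_combination e01
        exact (mul_eq_zero.mp this).resolve_right hs0
      have h10 : m 1 0 = 0 := by
        have : m 1 0 * (m 0 0 + m 1 1) = 0 := by linear_combination e10
        exact (mul_eq_zero.mp this).resolve_right hs0
      have h00 : m 0 0 ≠ 0 := by
        intro h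
        rw [h, zero_mul] at hs
        exact hF hs.symm
      have h11 : m 1 1 = m 0 0 := by
        have : m 0 0 * (m 1 1 - m 0 0) = 0 := by
          rw [h01, zero_mul, add_zero] at e00
          rw [h01, zero_mul, sub_zero] at hd
          linear_combination hd - e00
        exact sub_eq_zero.mp ((mul_eq_zero.mp this).resolve_left h00)
      have h3 : m 0 0 = -1 := by
        rw [h01, zero_mul, add_zero] at e00
        rcases mul_self_eq_one_iff.1 e00 with h | h
        · exfalso
          apply hM1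
          apply Units.ext
          change m = 1
          ext i j
          fin_cases i <;> fin_cases j <;> simp [h01, h10, h11, h]
        · exact h
      ext i j
      fin_cases i <;> fin_cases j <;> simp [h01, h10, h11, h3]
    apply Units.ext
    rw [key A hA hdA hA1, key B hB hdB hB1]

/-- A perfect subgroup `L` all of whose elements have a `p`-power power in the normal subgroup `C` lies in `C`. -/
theorem le_of_pow_mem {Y : Type u} [Group Y] [Finite Y] {p : ℕ} [Fact p.Prime] {L C : Subgroup Y} [C.Normal]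
    (hL : ⁅L, L⁆ = L) (h : ∀ x ∈ L, ∃ k : ℕ, x ^ p ^ k ∈ C) : L ≤ C := by
  have h1 : IsPGroup p (L.map (QuotientGroup.mk' C)) := by
    rintro ⟨_, x, hx, rfl⟩
    obtain ⟨k, hk⟩ := h x hx
    refine ⟨k, Subtype.ext ?_⟩
    exact (QuotientGroup.eq_one_iff (x ^ p ^ k)).2 hk
  have h2 : Group.IsNilpotent (L.map (QuotientGroup.mk' C)) := h1.isNilpotent
  have h3 := Basic.eq_bot_of_perfect_of_solvable (Basic.perfect_map (QuotientGroup.mk' C) hL) inferInstance
  rw [Subgroup.map_eq_bot_iff, QuotientGroup.ker_mk'] at h3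
  exact h3

/-- **One of two perfect factors centralises `P`.** -/
theorem act_or (hFT : Quat.FT.{0}) {Y : Type u} [Group Y] [Finite Y] {p : ℕ} [hpf : Fact p.Prime] (hp : p ≠ 2)
    (hr : PRankLE p 2 Y) (L M : Subgroup Y) [L.Normal] [M.Normal] (hL : ⁅L, L⁆ = L) (hM : ⁅M, M⁆ = M)
    (hLM : L ⊔ M = ⊤) (hLmin : ∀ N : Subgroup Y, N.Normal → N ≤ L → N ≠ L → Group.IsSolvable N)
    (hinf : Group.IsSolvable (L ⊓ M : Subgroup Y))
    (P : Subgroup Y) [hPn : P.Normal] (hP : IsPGroup p P) :
    L ≤ centralizer (P : Set Y) ∨ M ≤ centralizer (P : Set Y) := by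
  classical
  obtain ⟨E0, hE0, hexp0, hcl0, hfaith⟩ :=
    OddOrderLocal.OmegaCritical.exists_omega_critical (R := P) hp hP
  have hE0' : E0.Characteristic := hE0
  set E : Subgroup Y := E0.map P.subtype with hEdef
  have hEn : E.Normal := ConjAct.normal_of_characteristic_of_normal
  have hexp : ∀ x : E, x ^ p = 1 := by
    rintro ⟨_, y, hy, rfl⟩
    apply Subtype.ext
    have := congrArg Subtype.val (hexp0 y hy)
    exact this
  have hcl : ∀ x y z : E, Commute ⁅x, y⁆ z := by
    rintro ⟨_, x, hx, rfl⟩ ⟨_, y, hy, rfl⟩ ⟨_, z, hz, rfl⟩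
    apply Subtype.ext
    have := congrArg Subtype.val (hcl0 x hx y hy z hz).eq
    exact this
  have hEp : IsPGroup p E := fun x => ⟨1, by rw [pow_one]; exact hexp x⟩
  have hcard := OddOrderLocal.OmegaCritical.card_abelianization_le hexp hcl (prankLE_subgroup hr E)
  set ψ := act E with hψ
  -- elements of `p'`-order in the kernel centralise `P`
  have hK1 : ∀ g ∈ ψ.ker, (orderOf g).Coprime p → g ∈ centralizer (P : Set Y) := by
    intro g hg h2
    have h3 : ψ g = 1 := MonoidHom.mem_ker.1 hg
    have h4 := fix_of_act_eq_one E hEp hcl h2 h3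
    have h5 : (MulAut.conjNormal g : MulAut P) = 1 := by
      refine hfaith _ ?_ fun x hx => ?_
      · exact Nat.Coprime.coprime_dvd_left (orderOf_map_dvd _ _) h2
      · have h6 := congrArg Subtype.val (h4 ⟨(x : Y), x, hx, rfl⟩)
        rw [MulAut.conjNormal_apply] at h6
        apply Subtype.ext
        rw [MulAut.conjNormal_apply]
        exact h6
    rw [mem_centralizer_iff]
    intro x hx
    have h8 := congrArg (fun φ : MulAut P => ((φ ⟨x, hx⟩ : P) : Y)) h5
    simp only [MulAut.conjNormal_apply, MulAut.one_apply] at h8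
    exact (mul_inv_eq_iff_eq_mul.mp h8).symm
  have hK2 : ∀ A : Subgroup Y, ⁅A, A⁆ = A → A ≤ ψ.ker → A ≤ centralizer (P : Set Y) := by
    intro A hA hAK
    refine le_of_pow_mem (p := p) hA fun x hx => ?_
    obtain ⟨k, m, hm, hord⟩ : ∃ k m : ℕ, m.Coprime p ∧ orderOf x = p ^ k * m := by
      obtain ⟨k, m, hm, h⟩ := Nat.exists_eq_pow_mul_and_not_dvd (orderOf_pos x).ne' p
        hpf.out.ne_one
      exact ⟨k, m, (Nat.Coprime.symm ((Nat.Prime.coprime_iff_not_dvd hpf.out).mpr hm)), h⟩
    refine ⟨k, hK1 _ (pow_mem (hAK hx) _) ?_⟩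
    have h1 : orderOf (x ^ p ^ k) = m := by
      rw [orderOf_pow' x (pow_ne_zero _ hpf.out.ne_zero), hord,
        Nat.gcd_eq_right (dvd_mul_right _ _), Nat.mul_div_cancel_left _ (pow_pos hpf.out.pos _)]
    rw [h1]
    exact hm
  by_contra hcon
  push Not at hcon
  obtain ⟨hLC, hMC⟩ := hcon
  have hLK : ¬ L ≤ ψ.ker := fun h => hLC (hK2 L hL h)
  have hMK : ¬ M ≤ ψ.ker := fun h => hMC (hK2 M hM h)
  -- the linear group
  have hAexp : ∀ x : Abelianization E, x ^ p = 1 := by
    intro x
    induction x using QuotientGroup.induction_on with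
    | H x =>
      change Abelianization.of x ^ p = 1
      rw [← map_pow, hexp x, map_one]
  have hAp : IsPGroup p (Abelianization E) := fun x => ⟨1, by rw [pow_one]; exact hAexp x⟩
  obtain ⟨n, hn⟩ := IsPGroup.iff_card.mp hAp
  have hn2 : n ≤ 2 := by
    rw [hn] at hcard
    exact (Nat.pow_le_pow_iff_right hpf.out.one_lt).mp hcard
  obtain ⟨e⟩ := Lib.ElemAbGL.mulAut_equiv_GL p n hAexp hn
  let f : Y →* GL (Fin n) (ZMod p) := e.toMonoidHom.comp ψ
  have hfker : f.ker = ψ.ker := by
    ext x
    rw [MonoidHom.mem_ker, MonoidHom.mem_ker]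
    change e (ψ x) = 1 ↔ _
    rw [map_eq_one_iff e e.injective]
  have hperf : commutator Y = ⊤ := by
    rw [eq_top_iff, ← hLM, commutator_def]
    refine sup_le ?_ ?_
    · rw [← hL]
      exact commutator_mono le_top le_top
    · rw [← hM]
      exact commutator_mono le_top le_top
  have hdet : ∀ g : Y, Matrix.GeneralLinearGroup.det (f g) = 1 := by
    intro g
    have h1 : commutator Y ≤ (Matrix.GeneralLinearGroup.det.comp f).ker :=
      Abelianization.commutator_subset_ker _
    have h2 : g ∈ (Matrix.GeneralLinearGroup.det.comp f).ker := h1 (by rw [hperf]; exact mem_top g)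
    exact MonoidHom.mem_ker.mp h2
  set f' := f.rangeRestrict with hf'
  have hsurj : Function.Surjective f' := f.rangeRestrict_surjective
  have hker' : f'.ker = ψ.ker := by
    rw [hf', MonoidHom.ker_rangeRestrict, hfker]
  -- `L ∩ M K` is solvable
  have hLKs : Group.IsSolvable (L ⊓ ψ.ker : Subgroup Y) := by
    refine hLmin _ inferInstance inf_le_left fun h => hLK ?_
    rw [← h]
    exact inf_le_right
  have hNs : Group.IsSolvable (L ⊓ (M ⊔ ψ.ker) : Subgroup Y) := by
    refine hLmin _ inferInstance inf_le_left fun h => ?_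
    have h1 : L ≤ M ⊔ ψ.ker := by rw [← h]; exact inf_le_right
    have h2 : L ≤ (L ⊓ M) ⊔ (L ⊓ ψ.ker) := by
      calc L = ⁅L, L⁆ := hL.symm
        _ ≤ ⁅L, M ⊔ ψ.ker⁆ := commutator_mono le_rfl h1
        _ ≤ (L ⊓ M) ⊔ (L ⊓ ψ.ker) := by
          rw [Lib.Cores.commutator_sup_le_iff]
          exact ⟨(commutator_le_inf L M).trans le_sup_left, (commutator_le_inf L ψ.ker).trans le_sup_right⟩
    have h3 : Group.IsSolvable ((L ⊓ M) ⊔ (L ⊓ ψ.ker) : Subgroup Y) := isSolvable_sup_of_normal hinf hLKs
    have h4 := Basic.eq_bot_of_perfect_of_solvable hL (isSolvable_of_le h2 h3)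
    exact hLK (h4 ▸ bot_le)
  have hLn : (L.map f').Normal := (inferInstance : L.Normal).map f' hsurj
  refine Quat.false_of_quat hFT (W := f.range) ?_ (L.map f') (M.map f') (Basic.perfect_map _ hL)
    (Basic.perfect_map _ hM) ?_ ?_ ?_ ?_
  · rintro ⟨_, x, rfl⟩ ⟨_, y, rfl⟩ hx1 hy1 hx2 hy2
    apply Subtype.ext
    refine eq_of_sq_eq_one hp hn2 (f x) (f y) (congrArg Subtype.val hx2) (hdet x) ?_
      (congrArg Subtype.val hy2) (hdet y) ?_
    · exact fun h => hx1 (Subtype.ext h)
    · exact fun h => hy1 (Subtype.ext h)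
  · intro h
    rw [Subgroup.map_eq_bot_iff, hker'] at h
    exact hLK h
  · intro h
    rw [Subgroup.map_eq_bot_iff, hker'] at h
    exact hMK h
  · rw [← Subgroup.map_sup, hLM, ← MonoidHom.range_eq_map, MonoidHom.range_eq_top_of_surjective _ hsurj]
  · have h1 : (L.map f' ⊓ M.map f' : Subgroup f.range) ≤ (L ⊓ (M ⊔ ψ.ker)).map f' := by
      rintro _ ⟨⟨x, hx, rfl⟩, ⟨y, hy, hyx⟩⟩
      refine ⟨x, ⟨hx, ?_⟩, rfl⟩
      have h2 : y⁻¹ * x ∈ ψ.ker := by
        rw [← hker', MonoidHom.mem_ker, map_mul, map_inv, hyx, inv_mul_cancel]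
      have h3 : x = y * (y⁻¹ * x) := by group
      rw [h3]
      exact mul_mem (mem_sup_left hy) (mem_sup_right h2)
    exact isSolvable_of_le h1 (isSolvable_map hNs f')

end Cfsg.Agent.QTComp.Act
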