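import Cfsg.Agent.QTComp.Act

/-!
# Distinct `𝒞`-components commute modulo `O_2`

`commutator_eq_bot`: abstract form. `calC_commutator_eq_bot`: in a finite group `G` with `O_2(G) = 1` and `m_p(G) ≤ 2`
for all odd primes `p`, distinct `𝒞`-components commute.
-/

set_option autoImplicit false

open scoped commutatorElement

namespace Cfsg.Agent.QTComp.Comm

open Subgroup Cfsg
open Cfsg.Agent.SignalizersComponents.ComponentExists
open Cfsg.Agent.SignalizersComponents.Components
open Cfsg.Agent.Lib.Cores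

universe u

variable {Y : Type u} [Group Y]

/-- relative form of `[X, L, L] = 1 → [X, L] = 1` for perfect `L` -/
theorem commutator_le_of {X L N : Subgroup Y} [N.Normal] (hL : ⁅L, L⁆ = L) (h : ⁅⁅X, L⁆, L⁆ ≤ N) : ⁅X, L⁆ ≤ N := by
  have h1 : Group.IsPerfect (L.map (QuotientGroup.mk' N)) := isPerfect_iff.2 (Basic.perfect_map _ hL)
  have h2 : ⁅⁅X.map (QuotientGroup.mk' N), L.map (QuotientGroup.mk' N)⁆, L.map (QuotientGroup.mk' N)⁆ = ⊥ := by
    rw [← map_commutator, ← map_commutator, Subgroup.map_eq_bot_iff, QuotientGroup.ker_mk']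
    exact h
  have h3 := commutator_eq_bot_of_commutator_commutator_eq_bot h1 h2
  rwa [← map_commutator, Subgroup.map_eq_bot_iff, QuotientGroup.ker_mk'] at h3

theorem exists_pow_mem_pCore {X : Type u} [Group X] [Finite X] (hX : ∀ a b : X, a * b = b * a) (p : ℕ)
    [Fact p.Prime] : ∃ m : ℕ, ¬ p ∣ m ∧ ∀ x : X, x ^ m ∈ pCore p X := by
  obtain ⟨P⟩ : Nonempty (Sylow p X) := inferInstance
  have hPn : (P : Subgroup X).Normal := ⟨fun n hn g => by
    rw [hX g n, mul_inv_cancel_right]
    exact hn⟩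
  have hP : (P : Subgroup X) ≤ pCore p X := le_pCore hPn P.isPGroup'
  refine ⟨(P : Subgroup X).index, P.not_dvd_index, fun x => hP ?_⟩
  exact pow_index_mem _ x

/-- **Abstract form.** -/
theorem commutator_eq_bot (hFT : Quat.FT.{0}) [Finite Y] (hr : ∀ p : ℕ, p.Prime → p ≠ 2 → PRankLE p 2 Y)
    (L M : Subgroup Y) [L.Normal] [M.Normal] (hL : ⁅L, L⁆ = L) (hM : ⁅M, M⁆ = M)
    (hLM : L ⊔ M = ⊤) (hLmin : ∀ N : Subgroup Y, N.Normal → N ≤ L → N ≠ L → Group.IsSolvable N)
    (hinf : Group.IsSolvable (L ⊓ M : Subgroup Y))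
    (h2 : ∀ N : Subgroup Y, N.Normal → N ≤ L ⊓ M → IsPGroup 2 N → N = ⊥) : ⁅L, M⁆ = ⊥ := by
  set X := ⁅L, M⁆ with hX
  have hXle : X ≤ L ⊓ M := commutator_le_inf L M
  have hXs : Group.IsSolvable X := isSolvable_of_le hXle hinf
  have hXn : X.Normal := inferInstance
  have hPn : ∀ p : ℕ, ((pCore p X).map X.subtype).Normal := by
    intro p
    have := pCore_characteristic (G := X) p
    exact ConjAct.normal_of_characteristic_of_normal
  have hPle : ∀ p : ℕ, (pCore p X).map X.subtype ≤ X := fun p => map_subtype_le _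
  -- one of the two factors centralises `O_p(X)`
  have hor : ∀ p : ℕ, p.Prime → L ≤ centralizer (((pCore p X).map X.subtype : Subgroup Y) : Set Y) ∨
      M ≤ centralizer (((pCore p X).map X.subtype : Subgroup Y) : Set Y) := by
    intro p hp
    have hpf : Fact p.Prime := ⟨hp⟩
    have := hPn p
    have hPp : IsPGroup p ((pCore p X).map X.subtype) := (pCore_isPGroup p).map _
    by_cases hp2 : p = 2
    · left
      subst hp2
      rw [h2 _ (hPn 2) ((hPle 2).trans hXle) hPp]
      intro x _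
      rw [mem_centralizer_iff]
      intro y hy
      rw [SetLike.mem_coe, mem_bot] at hy
      rw [hy, one_mul, mul_one]
    · exact Act.act_or hFT hp2 (hr p hp hp2) L M hL hM hLM hLmin hinf _ hPp
  have hcent : ∀ p : ℕ, p.Prime → ⁅X, (pCore p X).map X.subtype⁆ = ⊥ := by
    intro p hp
    have hPn' := hPn p
    set P := (pCore p X).map X.subtype with hP
    rcases hor p hp with h | h
    · have h3 : ⁅P, L⁆ = ⊥ := by
        rw [commutator_comm]
        exact commutator_eq_bot_iff_le_centralizer.2 h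
      refine commutator_commutator_eq_bot_of_rotate (H₁ := L) (H₂ := M) (H₃ := P) ?_ ?_
      · rw [eq_bot_iff]
        calc ⁅⁅M, P⁆, L⁆ ≤ ⁅P, L⁆ := commutator_mono (commutator_le_right M P) le_rfl
          _ = ⊥ := h3
      · rw [h3, commutator_bot_left]
    · have h3 : ⁅M, P⁆ = ⊥ := commutator_eq_bot_iff_le_centralizer.2 h
      refine commutator_commutator_eq_bot_of_rotate (H₁ := L) (H₂ := M) (H₃ := P) ?_ ?_
      · rw [h3, commutator_bot_left]
      · rw [eq_bot_iff]
        calc ⁅⁅P, L⁆, M⁆ ≤ ⁅P, M⁆ := commutator_mono (commutator_le_left P L) le_rfl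
          _ = ⊥ := by rw [commutator_comm]; exact h3
  -- `X` is abelian
  have hF : fittingSubgroup X ≤ center X := by
    rw [fittingSubgroup_eq_iSup_pCore]
    refine iSup_le fun p => ?_
    intro x hx
    rw [mem_center_iff]
    intro g
    have h3 : ⁅(g : Y), (x : Y)⁆ ∈ ⁅X, (pCore (p : ℕ) X).map X.subtype⁆ :=
      commutator_mem_commutator g.2 ⟨x, hx, rfl⟩
    rw [hcent p p.2, mem_bot, commutatorElement_eq_one_iff_mul_comm] at h3
    exact Subtype.ext h3
  have hXab : ∀ a b : X, a * b = b * a := by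
    have h3 : (⊤ : Subgroup X) ≤ fittingSubgroup X := by
      refine le_fitting_of_normal_of_isSolvable inferInstance ?_ ?_
      · exact Group.isSolvable_of_surjective (f := (topEquiv (G := X)).symm.toMonoidHom)
          (topEquiv (G := X)).symm.surjective
      · intro x _
        rw [mem_centralizer_iff]
        intro y hy
        exact ((mem_center_iff.1 (hF hy)) x).symm
    intro a b
    exact (mem_center_iff.1 (hF (h3 (mem_top b)))) a
  -- `X = [X, L] = [X, M]`
  have hXL : X ≤ ⁅X, L⁆ := by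
    have h3 : ⁅⁅M, L⁆, L⁆ ≤ ⁅X, L⁆ := by rw [commutator_comm M L]
    have h4 := commutator_le_of (X := M) (N := ⁅X, L⁆) hL h3
    rwa [commutator_comm M L] at h4
  have hXM : X ≤ ⁅X, M⁆ := by
    have h3 : ⁅⁅L, M⁆, M⁆ ≤ ⁅X, M⁆ := le_rfl
    exact commutator_le_of (X := L) (N := ⁅X, M⁆) hM h3
  -- if `A` centralises `O_p(X)` and `X = [X, A]` then `p` does not divide the order
  have hfin : ∀ p : ℕ, p.Prime → ∀ A : Subgroup Y, X ≤ ⁅X, A⁆ →
      A ≤ centralizer (((pCore p X).map X.subtype : Subgroup Y) : Set Y) → ¬ p ∣ Nat.card X := by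
    intro p hp A hXA hA hdvd
    have hpf : Fact p.Prime := ⟨hp⟩
    obtain ⟨m, hm, hmx⟩ := exists_pow_mem_pCore hXab p
    have hpow : ∀ x ∈ X, x ^ m = 1 := by
      have h3 : ∀ x ∈ ⁅X, A⁆, x ∈ X ∧ x ^ m = 1 := by
        intro x hx
        rw [Subgroup.commutator_def] at hx
        induction hx using closure_induction with
        | mem x hx =>
          obtain ⟨g, hg, a, ha, rfl⟩ := hx
          have h4 : a * g⁻¹ * a⁻¹ ∈ X := hXn.conj_mem _ (X.inv_mem hg) a
          have h5 : ⁅g, a⁆ = g * (a * g⁻¹ * a⁻¹) := by rw [commutatorElement_def]; group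
          refine ⟨by rw [h5]; exact mul_mem hg h4, ?_⟩
          have h6 : Commute g (a * g⁻¹ * a⁻¹) := congrArg Subtype.val (hXab ⟨g, hg⟩ ⟨_, h4⟩)
          rw [h5, h6.mul_pow, conj_pow, inv_pow]
          have h7 : g ^ m ∈ (pCore p X).map X.subtype := ⟨⟨g, hg⟩ ^ m, hmx ⟨g, hg⟩, rfl⟩
          have h8 := (mem_centralizer_iff.1 (hA ha)) _ h7
          have h9 : a * (g ^ m)⁻¹ * a⁻¹ = (g ^ m)⁻¹ := by
            rw [mul_inv_eq_iff_eq_mul, eq_inv_mul_iff_mul_eq, ← mul_assoc, h8, mul_inv_cancel_right]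
          rw [h9, mul_inv_cancel]
        | one => exact ⟨one_mem _, one_pow m⟩
        | mul x y _ _ ihx ihy =>
          refine ⟨mul_mem ihx.1 ihy.1, ?_⟩
          have h6 : Commute x y := congrArg Subtype.val (hXab ⟨x, ihx.1⟩ ⟨y, ihy.1⟩)
          rw [h6.mul_pow, ihx.2, ihy.2, one_mul]
        | inv x _ ih => exact ⟨inv_mem ih.1, by rw [inv_pow, ih.2, inv_one]⟩
      exact fun x hx => (h3 x (hXA hx)).2
    obtain ⟨x, hx⟩ := exists_prime_orderOf_dvd_card' p hdvd
    have h4 : x ^ m = 1 := Subtype.ext (hpow x x.2)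
    have h5 := orderOf_dvd_of_pow_eq_one h4
    rw [hx] at h5
    exact hm h5
  -- the end
  by_contra hne
  have hcard : Nat.card X ≠ 1 := fun h => hne (eq_bot_of_card_eq X h)
  obtain ⟨p, hp, hpd⟩ := Nat.exists_prime_and_dvd hcard
  rcases hor p hp with h | h
  · exact hfin p hp L hXL h hpd
  · exact hfin p hp M hXM h hpd

end Cfsg.Agent.QTComp.Comm
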