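import Cfsg.Agent.QTComp.Three
import Cfsg.Agent.Schreier.Basic
import Cfsg.Agent.Lib.GenFitting

/-!
# Part (1) of S1820: the `𝒞`-components generate the perfect core
-/

set_option autoImplicit false

open scoped commutatorElement

namespace Cfsg.Agent.QTComp.One

open Subgroup Cfsg
open Cfsg.Agent.SignalizersComponents.ComponentExists
open Cfsg.Agent.SignalizersComponents.Components
open Cfsg.Agent.Schreier.Basic (Sch)

universe u

variable {G : Type u} [Group G]

/-- `E = ⟨𝒞(G)⟩` is normal. -/
theorem sSup_normal : (sSup (calC G)).Normal := by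
  have : (sSup (calC G)).Characteristic :=
    Lib.Cores.sSup_characteristic _ fun e N hN => Basic.calC_map_equiv e hN
  infer_instance

/-- The layer of the quotient by the solvable radical contains its centraliser. -/
theorem centralizer_layer [Finite G] {R : Subgroup G} (hR : Basic.IsRad R) [R.Normal] :
    centralizer (layer (G ⧸ R) : Set (G ⧸ R)) = ⊥ := by
  have hF : fittingSubgroup (G ⧸ R) = ⊥ := by
    have := Lib.Cores.fittingSubgroup_isNilpotent (G := G ⧸ R)
    exact hR.eq_bot_of_subnormal (Lib.Cores.fittingSubgroup_normal).isSubnormal inferInstance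
  have hFs : generalizedFittingSubgroup (G ⧸ R) = layer (G ⧸ R) := by
    rw [Lib.GenFitting.genFitting_def, hF, sup_bot_eq]
  have h1 := Lib.GenFitting.centralizer_genFitting_le (G := G ⧸ R)
  rw [hFs] at h1
  have hln := layer_normal (G := G ⧸ R)
  have hcn : (centralizer (layer (G ⧸ R) : Set (G ⧸ R))).Normal := inferInstance
  refine hR.eq_bot_of_subnormal hcn.isSubnormal ?_
  exact Group.isSolvable_of_comm fun a b => Subtype.ext ((mem_centralizer_iff.1 b.2) a (h1 a.2))

theorem le_normalizer_centralizer {H : Type*} [Group H] (K : Subgroup H) :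
    K ≤ normalizer ((centralizer (K : Set H) : Subgroup H) : Set H) := by
  rw [le_normalizer_iff]
  intro k hk c hc
  have h3 : k * c * k⁻¹ = c := by
    rw [mul_inv_eq_iff_eq_mul]
    exact (mem_centralizer_iff.1 hc) k hk
  rw [h3]
  exact hc

theorem mem_sup_centralizer {H : Type*} [Group H] {K : Subgroup H} {x : H} :
    x ∈ K ⊔ centralizer (K : Set H) ↔ ∃ k ∈ K, ∃ c ∈ centralizer (K : Set H), k * c = x := by
  rw [← SetLike.mem_coe, coe_mul_of_left_le_normalizer_right _ _ (le_normalizer_centralizer K)]
  rfl

/-- Elements inducing inner automorphisms on all components lie in the layer, if the layer contains its centraliser. -/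
theorem mem_layer_of_inner {H : Type u} [Group H] [Finite H] (hc : centralizer (layer H : Set H) = ⊥) (x : H)
    (hx : ∀ K : Subgroup H, IsComponent K → x ∈ K ⊔ centralizer (K : Set H)) : x ∈ layer H := by
  classical
  have hfin : Set.Finite {K : Subgroup H | IsComponent K} := Set.toFinite _
  have hlay : ∀ K₀ : Subgroup H, IsComponent K₀ → layer H ≤ K₀ ⊔ centralizer (K₀ : Set H) := by
    intro K₀ hK₀c
    rw [layer_le_iff]
    intro K hK
    by_cases h : K = K₀
    · rw [h]; exact le_sup_left
    · exact (component_le_centralizer_of_ne hK hK₀c h).trans le_sup_right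
  -- the induction
  have key : ∀ s : Finset (Subgroup H), (∀ K ∈ s, IsComponent K) →
      ∃ l ∈ layer H, ∀ K ∈ s, l⁻¹ * x ∈ centralizer (K : Set H) := by
    intro s
    induction s using Finset.induction_on with
    | empty => exact fun _ => ⟨1, one_mem _, fun K hK => absurd hK (Finset.notMem_empty K)⟩
    | insert K₀ s hK₀ ih =>
      intro hs
      obtain ⟨l, hl, hls⟩ := ih fun K hK => hs K (Finset.mem_insert_of_mem hK)
      have hK₀c := hs K₀ (Finset.mem_insert_self _ _)
      have hy : l⁻¹ * x ∈ K₀ ⊔ centralizer (K₀ : Set H) :=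
        mul_mem (inv_mem (hlay K₀ hK₀c hl)) (hx K₀ hK₀c)
      obtain ⟨k, hk, c, hc', hkc⟩ := mem_sup_centralizer.1 hy
      refine ⟨l * k, mul_mem hl (component_le_layer hK₀c hk), fun K hK => ?_⟩
      have h1 : (l * k)⁻¹ * x = c := by
        rw [mul_inv_rev, mul_assoc, ← hkc, inv_mul_cancel_left]
      rcases Finset.mem_insert.1 hK with rfl | hKs
      · rw [h1]; exact hc'
      · have hne : K₀ ≠ K := fun h => hK₀ (h ▸ hKs)
        have h2 : k ∈ centralizer (K : Set H) :=
          component_le_centralizer_of_ne hK₀c (hs K hK) hne hk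
        have h3 : (l * k)⁻¹ * x = k⁻¹ * (l⁻¹ * x) := by group
        rw [h3]
        exact mul_mem (inv_mem h2) (hls K hKs)
  obtain ⟨l, hl, hls⟩ := key hfin.toFinset fun K hK => hfin.mem_toFinset.1 hK
  have h1 : l⁻¹ * x ∈ centralizer (layer H : Set H) := by
    rw [mem_centralizer_iff]
    intro y hy
    have h2 : layer H ≤ centralizer ({l⁻¹ * x} : Set H) := by
      rw [layer_le_iff]
      intro K hK z hz
      rw [mem_centralizer_singleton_iff]
      exact ((mem_centralizer_iff.1 (hls K (hfin.mem_toFinset.2 hK))) z hz)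
    exact mem_centralizer_singleton_iff.1 (h2 hy)
  rw [hc, mem_bot] at h1
  have h2 : x = l := by
    have := congrArg (fun y => l * y) h1
    simpa using this
  rw [h2]
  exact hl

/-- A perfect group of automorphisms of a simple group with the Schreier property: the inner form. -/
theorem mem_sup_of_sch {H : Type u} [Group H] {K P : Subgroup H} (hK : Sch K) (hP : ⁅P, P⁆ = P)
    (hPK : P ≤ normalizer (K : Set H)) : P ≤ K ⊔ centralizer (K : Set H) := by
  intro x hx
  set N := normalizer (K : Set H) with hN
  have h1 := hK ((P.subgroupOf N).map K.normalizerMonoidHom)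
    (Basic.perfect_map _ (Basic.perfect_subgroupOf hP hPK))
  obtain ⟨k, hk⟩ := h1 ⟨⟨x, hPK hx⟩, hx, rfl⟩
  rw [mem_sup_centralizer]
  refine ⟨k, k.2, (k : H)⁻¹ * x, ?_, by group⟩
  rw [mem_centralizer_iff]
  intro y hy
  have h2 : (k : H) * y * (k : H)⁻¹ = x * y * x⁻¹ := by
    have := congrArg (fun φ : MulAut K => ((φ ⟨y, hy⟩ : K) : H)) hk
    exact this
  have h3 : x * y = (k : H) * y * (k : H)⁻¹ * x := by rw [h2]; group
  calc y * ((k : H)⁻¹ * x) = (k : H)⁻¹ * ((k : H) * y * (k : H)⁻¹ * x) := by group
    _ = (k : H)⁻¹ * x * y := by rw [← h3, mul_assoc]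

/-- **The `𝒞`-components generate the perfect core**, if perfect subgroups normalise them and their simple quotients
have the Schreier property. -/
theorem sSup_eq [Finite G] (hn : ∀ L ∈ calC G, ∀ P : Subgroup G, ⁅P, P⁆ = P → P ≤ normalizer (L : Set G))
    (hSch : ∀ (L : Subgroup G) (N : Subgroup L) [N.Normal], IsSimpleGroup (L ⧸ N) → ¬ IsMulCommutative (L ⧸ N) →
      Sch (L ⧸ N)) : sSup (calC G) = perfectCore G := by
  obtain ⟨R, hR⟩ := Basic.exists_isRad G
  have hRn := hR.normal
  set π := QuotientGroup.mk' R with hπ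
  apply le_antisymm
  · exact sSup_le fun L hL => le_sSup hL.2.1
  · refine sSup_le fun P hP => ?_
    have hP' : ⁅P, P⁆ = P := hP
    have hEn := sSup_normal (G := G)
    refine Basic.le_of_le_sup (S := R) hEn.isSubnormal hR.solv hP' ?_
    -- the image of `P` lies in the layer
    have h1 : P.map π ≤ layer (G ⧸ R) := by
      intro x hx
      refine mem_layer_of_inner (centralizer_layer hR) x fun K hK => ?_
      obtain ⟨L, hL, rfl⟩ := Basic.exists_calC_map hR hK
      have hs := Basic.map_simple hR hL
      -- the Schreier property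
      have hsch : Sch (L.map π) := by
        set f := π.subgroupMap L with hf
        have hfs : Function.Surjective f := MonoidHom.subgroupMap_surjective _ _
        let e := QuotientGroup.quotientKerEquivOfSurjective f hfs
        have hs' : IsSimpleGroup (L ⧸ f.ker) := e.isSimpleGroup
        have hna : ¬ IsMulCommutative (L ⧸ f.ker) := by
          intro h
          apply quasisimple_not_isMulCommutative hK.2
          exact ⟨⟨fun a b => by
            apply e.symm.injective
            rw [map_mul, map_mul]
            exact h.is_comm.comm _ _⟩⟩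
        exact (hSch L f.ker hs' hna).of_equiv e
      refine mem_sup_of_sch hsch (Basic.perfect_map _ hP') ?_ hx
      -- `P` normalises `L`
      rintro _ ⟨y, hy, rfl⟩
      exact le_normalizer_map π (mem_map_of_mem π (hn L hL P hP' hy))
    have h2 : layer (G ⧸ R) ≤ (sSup (calC G)).map π := by
      rw [layer_le_iff]
      intro K hK
      obtain ⟨L, hL, rfl⟩ := Basic.exists_calC_map hR hK
      exact map_mono (le_sSup hL)
    exact Basic.le_sup_of_map_le (h1.trans h2)

end Cfsg.Agent.QTComp.One
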