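import Cfsg.Agent.QTComp.Cyc

/-!
# Part (3) of S1820: the non-normal `𝒞`-components
-/

set_option autoImplicit false

open scoped commutatorElement

namespace Cfsg.Agent.QTComp.Three

open Subgroup Cfsg
open Cfsg.Agent.SignalizersComponents.ComponentExists
open Cfsg.Agent.Lib.Cores

universe u

variable {G : Type u} [Group G]

/-- `L / O_2(L) ≅ L O_2(G) / O_2(G)` for subnormal `L`. -/
theorem exists_equiv {L : Subgroup G} (hL : L.IsSubnormal) :
    Nonempty (↥L ⧸ pCore 2 ↥L ≃* ↥(L.map (QuotientGroup.mk' (pCore 2 G)))) := by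
  set π := QuotientGroup.mk' (pCore 2 G) with hπ
  have hsurj : Function.Surjective (π.subgroupMap L) := MonoidHom.subgroupMap_surjective _ _
  have hker : (π.subgroupMap L).ker = pCore 2 ↥L := by
    apply map_injective L.subtype_injective
    rw [Two.pCore_map_eq hL]
    ext x
    constructor
    · rintro ⟨y, hy, rfl⟩
      refine ⟨y.2, ?_⟩
      have h1 : π (y : G) = 1 := congrArg Subtype.val (MonoidHom.mem_ker.1 hy)
      exact (QuotientGroup.eq_one_iff (y : G)).1 h1
    · rintro ⟨hx, hxQ⟩
      refine ⟨⟨x, hx⟩, ?_, rfl⟩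
      rw [SetLike.mem_coe, MonoidHom.mem_ker]
      apply Subtype.ext
      exact (QuotientGroup.eq_one_iff x).2 hxQ
  exact ⟨(QuotientGroup.quotientMulEquivOfEq hker.symm).trans
    (QuotientGroup.quotientKerEquivOfSurjective (π.subgroupMap L) hsurj)⟩

theorem solvable_of_normal_map [Finite G] {L : Subgroup G} (hL : L ∈ calC G) (N : Subgroup L) (hN : N.Normal)
    (hne : N ≠ ⊤) : Group.IsSolvable N := by
  have h1 : (N.map L.subtype).IsSubnormal := IsSubnormal.trans' hN.isSubnormal hL.2.2.1
  have h2 : N.map L.subtype < L := by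
    refine lt_of_le_of_ne (map_subtype_le _) fun h => hne ?_
    apply map_injective L.subtype_injective
    rw [h, ← MonoidHom.range_eq_map, range_subtype]
  have h3 := Basic.calC_solvable_of_lt hL h1 h2
  exact Group.isSolvable_of_isSolvable_injective
    (f := (N.equivMapOfInjective L.subtype L.subtype_injective).toMonoidHom)
    (N.equivMapOfInjective L.subtype L.subtype_injective).injective

/-- `O_2(G) = 1`, `L` a `𝒞`-component with a conjugate `≠ L`: `L` is simple with cyclic odd Sylow subgroups. -/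
theorem simple_of_ne (hFT : Quat.FT.{0}) [Finite G]
    (hr : ∀ p : ℕ, p.Prime → p ≠ 2 → PRankLE p 2 G) (h2 : pCore 2 G = ⊥) {L : Subgroup G} (hL : L ∈ calC G)
    {g : G} (hg : L.map (MulAut.conj g).toMonoidHom ≠ L) :
    IsSimpleGroup L ∧ ∀ (p : ℕ) (P : Sylow p L), p.Prime → p ≠ 2 → IsCyclic P := by
  have hcomm := Two.calC_commutator_eq_bot hFT hr h2 hL (Basic.calC_conj g hL) hg.symm
  have hcyc : ∀ (p : ℕ) (P : Sylow p L), p.Prime → p ≠ 2 → IsCyclic P := by
    intro p P hp hp2
    have : Fact p.Prime := ⟨hp⟩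
    exact Cyc.cyclic_sylow hp2 (hr p hp hp2) hL.2.1 g hcomm P
  refine ⟨?_, hcyc⟩
  have : Nontrivial L := (nontrivial_iff_ne_bot L).2 hL.1
  refine Cyc.isSimpleGroup_of_cyclic (isPerfect_iff.2 hL.2.1).commutator_eq_top ?_ hcyc
    (fun N hN hne => solvable_of_normal_map hL N hN hne)
  have h3 := Two.pCore_map_eq (G := G) hL.2.2.1
  rw [h2, inf_bot_eq, map_eq_bot_iff_of_injective _ L.subtype_injective] at h3
  exact h3

theorem exists_odd_prime_dvd {X : Type*} [Group X] [Finite X] [Nontrivial X] (hX : commutator X = ⊤) :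
    ∃ p : ℕ, p.Prime ∧ p ≠ 2 ∧ p ∣ Nat.card X := by
  by_contra hcon
  push Not at hcon
  have : Fact (Nat.Prime 2) := ⟨Nat.prime_two⟩
  have h1 : IsPGroup 2 X := by
    rw [IsPGroup.iff_card]
    refine ⟨_, Nat.eq_prime_pow_of_unique_prime_dvd Nat.card_pos.ne' ?_⟩
    intro d hd hdvd
    by_contra hne
    exact hcon d hd hne hdvd
  have h2 : Group.IsPerfect X := ⟨hX⟩
  have h3 : Group.IsNilpotent X := h1.isNilpotent
  exact Group.IsPerfect.not_isNilpotent X h3

theorem center_eq_bot_of_simple {X : Type*} [Group X] [IsSimpleGroup X] (hX : commutator X = ⊤) : center X = ⊥ := by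
  rcases (inferInstance : (center X).Normal).eq_bot_or_eq_top with h | h
  · exact h
  · exfalso
    have h2 : Group.IsPerfect X := ⟨hX⟩
    have : IsMulCommutative X := ⟨⟨fun a b => by
      have : b ∈ center X := by rw [h]; exact mem_top b
      exact (mem_center_iff.1 this) a⟩⟩
    exact Group.IsPerfect.not_isMulCommutative X this

/-- `O_2(G) = 1`: a `𝒞`-component has at most two conjugates. -/
theorem false_of_three_conj (hFT : Quat.FT.{0}) [Finite G]
    (hr : ∀ p : ℕ, p.Prime → p ≠ 2 → PRankLE p 2 G) (h2 : pCore 2 G = ⊥) {L : Subgroup G} (hL : L ∈ calC G)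
    {g h : G} (hg : L.map (MulAut.conj g).toMonoidHom ≠ L) (hh : L.map (MulAut.conj h).toMonoidHom ≠ L)
    (hgh : L.map (MulAut.conj g).toMonoidHom ≠ L.map (MulAut.conj h).toMonoidHom) : False := by
  obtain ⟨hs, -⟩ := simple_of_ne hFT hr h2 hL hg
  have hperf : commutator L = ⊤ := (isPerfect_iff.2 hL.2.1).commutator_eq_top
  obtain ⟨p, hp, hp2, hpd⟩ := exists_odd_prime_dvd hperf
  have : Fact p.Prime := ⟨hp⟩
  have hM := Basic.calC_conj g hL
  have hN := Basic.calC_conj h hL
  have cardc : ∀ x : G, Nat.card (L.map (MulAut.conj x).toMonoidHom) = Nat.card L := fun x =>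
    card_map_of_injective (K := L) (f := (MulAut.conj x).toMonoidHom) (MulAut.conj x).injective
  have hcN : center (L.map (MulAut.conj h).toMonoidHom) = ⊥ := by
    have e : L ≃* L.map (MulAut.conj h).toMonoidHom := L.equivMapOfInjective _ (MulAut.conj h).injective
    have : IsSimpleGroup (L.map (MulAut.conj h).toMonoidHom) := e.symm.isSimpleGroup
    exact center_eq_bot_of_simple (isPerfect_iff.2 hN.2.1).commutator_eq_top
  exact Cyc.false_of_three (hr p hp hp2)
    (Two.calC_commutator_eq_bot hFT hr h2 hL hM hg.symm)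
    (Two.calC_commutator_eq_bot hFT hr h2 hL hN hh.symm)
    (Two.calC_commutator_eq_bot hFT hr h2 hM hN hgh)
    (center_eq_bot_of_simple hperf) hcN hpd (by rw [cardc g]; exact hpd) (by rw [cardc h]; exact hpd)

theorem map_conj_map {H : Type*} [Group H] (f : G →* H) (L : Subgroup G) (x : G) :
    (L.map (MulAut.conj x).toMonoidHom).map f = (L.map f).map (MulAut.conj (f x)).toMonoidHom := by
  rw [map_map, map_map]
  congr 1
  ext y
  simp

/-- **The non-normal `𝒞`-components**, general form. -/
theorem three (hFT : Quat.FT.{0}) [Finite G] (hr : ∀ p : ℕ, p.Prime → p ≠ 2 → PRankLE p 2 G) {L : Subgroup G}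
    (hL : L ∈ calC G) (hn : ¬ L.Normal) :
    (normalizer (L : Set G)).index = 2 ∧ IsSimpleGroup (↥L ⧸ pCore 2 ↥L) ∧
      ∀ (p : ℕ) (P : Sylow p (↥L ⧸ pCore 2 ↥L)), p.Prime → p ≠ 2 → IsCyclic P := by
  set π := QuotientGroup.mk' (pCore 2 G) with hπ
  have hs := Two.pCore_solvable (G := G)
  have hr' := Two.rank_quot hr
  have h2' : pCore 2 (G ⧸ pCore 2 G) = ⊥ := pCore_quotient_pCore 2
  have hL' := Two.calC_map hs hL
  -- membership in the normaliser
  have hmem : ∀ x : G, x ∈ normalizer (L : Set G) ↔ L.map (MulAut.conj x).toMonoidHom = L := by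
    intro x
    constructor
    · intro hx
      have hle : L.map (MulAut.conj x).toMonoidHom ≤ L := by
        rintro _ ⟨y, hy, rfl⟩
        exact (mem_normalizer_iff.1 hx y).1 hy
      refine eq_of_le_of_card_ge hle (le_of_eq ?_)
      exact (card_map_of_injective (K := L) (f := (MulAut.conj x).toMonoidHom) (MulAut.conj x).injective).symm
    · intro hx
      rw [mem_normalizer_iff]
      intro y
      constructor
      · intro hy
        rw [← hx]
        exact ⟨y, hy, rfl⟩
      · intro hy
        rw [← hx] at hy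
        obtain ⟨z, hz, hzy⟩ := hy
        have : z = y := (MulAut.conj x).injective hzy
        rw [← this]
        exact hz
  obtain ⟨g, hg⟩ : ∃ g : G, g ∉ normalizer (L : Set G) := by
    by_contra hcon
    push Not at hcon
    apply hn
    rw [← normalizer_eq_top_iff, eq_top_iff]
    exact fun x _ => hcon x
  have hdist : ∀ {x y : G}, L.map (MulAut.conj x).toMonoidHom ≠ L.map (MulAut.conj y).toMonoidHom →
      (L.map π).map (MulAut.conj (π x)).toMonoidHom ≠ (L.map π).map (MulAut.conj (π y)).toMonoidHom := by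
    intro x y hxy
    rw [← map_conj_map, ← map_conj_map]
    exact Two.calC_map_ne hs (Basic.calC_conj x hL) (Basic.calC_conj y hL) hxy
  have hdist1 : ∀ {x : G}, L.map (MulAut.conj x).toMonoidHom ≠ L →
      (L.map π).map (MulAut.conj (π x)).toMonoidHom ≠ L.map π := by
    intro x hx
    rw [← map_conj_map]
    exact Two.calC_map_ne hs (Basic.calC_conj x hL) hL hx
  have hg' : L.map (MulAut.conj g).toMonoidHom ≠ L := fun h => hg ((hmem g).2 h)
  obtain ⟨hsim, hcyc⟩ := simple_of_ne hFT hr' h2' hL' (hdist1 hg')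
  obtain ⟨e⟩ := exists_equiv hL.2.2.1
  refine ⟨?_, ?_, ?_⟩
  · -- exactly two conjugates
    have htwo : ∀ x y : G, L.map (MulAut.conj x).toMonoidHom ≠ L → L.map (MulAut.conj y).toMonoidHom ≠ L →
        L.map (MulAut.conj x).toMonoidHom = L.map (MulAut.conj y).toMonoidHom := by
      intro x y hx hy
      by_contra hxy
      exact false_of_three_conj hFT hr' h2' hL' (hdist1 hx) (hdist1 hy) (hdist hxy)
    have hcm : ∀ x y : G, L.map (MulAut.conj (x * y)).toMonoidHom =
        (L.map (MulAut.conj y).toMonoidHom).map (MulAut.conj x).toMonoidHom := by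
      intro x y
      rw [map_map]
      congr 1
      ext z
      simp [mul_assoc]
    rw [index_eq_two_iff]
    refine ⟨g, fun b => ?_⟩
    by_cases hb : b ∈ normalizer (L : Set G)
    · refine Or.inr ⟨hb, fun h => hg ?_⟩
      have := mul_mem (inv_mem hb) h
      rwa [inv_mul_cancel_left] at this
    · refine Or.inl ⟨?_, hb⟩
      rw [hmem, hcm]
      have hb1 : b⁻¹ ∉ normalizer (L : Set G) := fun h => hb (by
        have := inv_mem h
        rwa [inv_inv] at this)
      have h3 : L.map (MulAut.conj g).toMonoidHom = L.map (MulAut.conj b⁻¹).toMonoidHom :=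
        htwo g b⁻¹ hg' (fun h => hb1 ((hmem _).2 h))
      rw [h3, ← hcm, mul_inv_cancel]
      ext z
      simp
  · exact e.isSimpleGroup
  · intro p P hp hp2
    have : Fact p.Prime := ⟨hp⟩
    let P' : Sylow p ↥(L.map π) := P.mapSurjective (f := e.toMonoidHom) e.surjective
    have h3 := hcyc p P' hp hp2
    have h4 : IsCyclic ↥((P : Subgroup (↥L ⧸ pCore 2 ↥L)).map e.toMonoidHom) := h3
    refine isCyclic_of_injective ((e.toMonoidHom).subgroupMap (P : Subgroup (↥L ⧸ pCore 2 ↥L))) ?_
    intro a b hab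
    apply Subtype.ext
    exact e.injective (congrArg Subtype.val hab)

end Cfsg.Agent.QTComp.Three
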