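import Cfsg.Agent.QTComp.Comm
import Cfsg.Agent.OddOrderLocal.RankQuot
import Cfsg.Agent.SignalizersComponents.CompBasic

/-!
# Distinct `𝒞`-components commute modulo `O_2`

`G` a finite group with `m_p(G) ≤ 2` for all odd primes `p`.
-/

set_option autoImplicit false

open scoped commutatorElement

namespace Cfsg.Agent.QTComp.Two

open Subgroup Cfsg
open Cfsg.Agent.SignalizersComponents.ComponentExists
open Cfsg.Agent.SignalizersComponents.Components
open Cfsg.Agent.SignalizersComponents.CompBasic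
open Cfsg.Agent.Lib.Cores

universe u

variable {G : Type u} [Group G]

theorem isSubnormal_of_le_normalizer {N L : Subgroup G} (hN : N ≤ L) (hL : L.IsSubnormal)
    (hn : L ≤ normalizer (N : Set G)) : N.IsSubnormal :=
  IsSubnormal.step N L hN hL (normal_subgroupOf_of_le_normalizer hn)

/-- `O_2(G) = 1`: distinct `𝒞`-components commute. -/
theorem calC_commutator_eq_bot (hFT : Quat.FT.{0}) [Finite G]
    (hr : ∀ p : ℕ, p.Prime → p ≠ 2 → PRankLE p 2 G) (h2 : pCore 2 G = ⊥) {L M : Subgroup G} (hL : L ∈ calC G)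
    (hM : M ∈ calC G) (hne : L ≠ M) : ⁅L, M⁆ = ⊥ := by
  set Y := L ⊔ M with hY
  have hLY : L ≤ Y := le_sup_left
  have hMY : M ≤ Y := le_sup_right
  have hnL : Y ≤ normalizer (L : Set G) := sup_le le_normalizer (Basic.le_normalizer_of_ne hM hL hne.symm)
  have hnM : Y ≤ normalizer (M : Set G) := sup_le (Basic.le_normalizer_of_ne hL hM hne) le_normalizer
  have hLn : (L.subgroupOf Y).Normal := normal_subgroupOf_of_le_normalizer hnL
  have hMn : (M.subgroupOf Y).Normal := normal_subgroupOf_of_le_normalizer hnM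
  have hsn : ∀ N : Subgroup Y, N.Normal → N ≤ L.subgroupOf Y → (N.map Y.subtype).IsSubnormal := by
    intro N hN hNL
    have h3 : N.map Y.subtype ≤ L := by
      rw [← map_subgroupOf_eq_of_le hLY]
      exact map_mono hNL
    refine isSubnormal_of_le_normalizer h3 hL.2.2.1 (hLY.trans ?_)
    intro y hy
    rw [mem_normalizer_iff]
    intro x
    constructor
    · rintro ⟨z, hz, rfl⟩
      exact ⟨⟨y, hy⟩ * z * ⟨y, hy⟩⁻¹, hN.conj_mem z hz ⟨y, hy⟩, rfl⟩
    · rintro ⟨z, hz, hzx⟩
      refine ⟨⟨y, hy⟩⁻¹ * z * ⟨y, hy⟩, ?_, ?_⟩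
      · have := hN.conj_mem z hz (⟨y, hy⟩⁻¹)
        rwa [inv_inv] at this
      · have h4 : (z : G) = y * x * y⁻¹ := hzx
        change y⁻¹ * (z : G) * y = x
        rw [h4]
        group
  have key : ⁅L.subgroupOf Y, M.subgroupOf Y⁆ = ⊥ := by
    refine Comm.commutator_eq_bot hFT ?_ (L.subgroupOf Y) (M.subgroupOf Y) (Basic.perfect_subgroupOf hL.2.1 hLY)
      (Basic.perfect_subgroupOf hM.2.1 hMY) ?_ ?_ ?_ ?_
    · intro p hp hp2
      exact Cfsg.Agent.Omega.Sec.Faithful.prankLE_subgroup (hr p hp hp2) Y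
    · rw [← subgroupOf_sup hLY hMY, ← hY, subgroupOf_self]
    · intro N hN hNL hNe
      have h3 : N.map Y.subtype < L := by
        refine lt_of_le_of_ne ?_ fun h => hNe ?_
        · rw [← map_subgroupOf_eq_of_le hLY]
          exact map_mono hNL
        · apply map_injective Y.subtype_injective
          rw [h, map_subgroupOf_eq_of_le hLY]
      have h4 := Basic.calC_solvable_of_lt hL (hsn N hN hNL) h3
      exact Group.isSolvable_of_isSolvable_injective
        (f := (N.equivMapOfInjective Y.subtype Y.subtype_injective).toMonoidHom)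
        (N.equivMapOfInjective Y.subtype Y.subtype_injective).injective
    · have h3 := Basic.inf_solvable_of_ne hL hM hne
      have h4 : (L.subgroupOf Y ⊓ M.subgroupOf Y : Subgroup Y) = (L ⊓ M).subgroupOf Y := (comap_inf _ _ _).symm
      rw [h4]
      exact Group.isSolvable_of_isSolvable_injective
        (f := (subgroupOfEquivOfLe ((inf_le_left : L ⊓ M ≤ L).trans hLY)).toMonoidHom)
        (subgroupOfEquivOfLe ((inf_le_left : L ⊓ M ≤ L).trans hLY)).injective
    · intro N hN hNle hNp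
      have h3 := subnormal_pGroup_le_pCore (hsn N hN (hNle.trans inf_le_left)) (hNp.map _)
      rw [h2, le_bot_iff, map_eq_bot_iff_of_injective _ Y.subtype_injective] at h3
      exact h3
  have h3 := congrArg (Subgroup.map Y.subtype) key
  rwa [map_commutator, map_subgroupOf_eq_of_le hLY, map_subgroupOf_eq_of_le hMY, Subgroup.map_bot] at h3

/-- Images of `𝒞`-components modulo a solvable normal subgroup are `𝒞`-components. -/
theorem calC_map [Finite G] {S : Subgroup G} [S.Normal] (hS : Group.IsSolvable S) {L : Subgroup G}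
    (hL : L ∈ calC G) : L.map (QuotientGroup.mk' S) ∈ calC (G ⧸ S) := by
  set π := QuotientGroup.mk' S with hπ
  have hsurj : Function.Surjective π := QuotientGroup.mk'_surjective S
  refine ⟨?_, Basic.perfect_map _ hL.2.1, hL.2.2.1.map hsurj, ?_⟩
  · intro h
    rw [Subgroup.map_eq_bot_iff, hπ, QuotientGroup.ker_mk'] at h
    exact hL.1 (Basic.eq_bot_of_perfect_of_solvable hL.2.1 (isSolvable_of_le h hS))
  · rintro K hK ⟨h1, h2, h3⟩
    have h4 : (K.comap π ⊓ L).IsSubnormal := (h3.comap π).inf hL.2.2.1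
    have h5 : (K.comap π ⊓ L).map π = K := by
      apply le_antisymm
      · rintro _ ⟨x, hx, rfl⟩
        exact hx.1
      · intro y hy
        obtain ⟨x, hx, rfl⟩ := hK.le hy
        exact ⟨x, ⟨hy, hx⟩, rfl⟩
    have h6 : K.comap π ⊓ L < L := by
      refine lt_of_le_of_ne inf_le_right fun h => ?_
      rw [h] at h5
      exact hK.ne h5.symm
    have h7 := Basic.calC_solvable_of_lt hL h4 h6
    have h8 := isSolvable_map h7 π
    rw [h5] at h8
    exact h1 (Basic.eq_bot_of_perfect_of_solvable h2 h8)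

theorem calC_map_ne [Finite G] {S : Subgroup G} [S.Normal] (hS : Group.IsSolvable S) {L M : Subgroup G}
    (hL : L ∈ calC G) (hM : M ∈ calC G) (hne : L ≠ M) :
    L.map (QuotientGroup.mk' S) ≠ M.map (QuotientGroup.mk' S) := fun h =>
  hne (Basic.calC_eq_of_le_sup hS hL hM (Basic.le_sup_of_map_le h.le))

theorem pCore_solvable [Finite G] : Group.IsSolvable (pCore 2 G) := by
  have : Fact (Nat.Prime 2) := ⟨Nat.prime_two⟩
  have : Group.IsNilpotent (pCore 2 G) := (pCore_isPGroup (G := G) 2).isNilpotent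
  infer_instance

theorem rank_quot [Finite G] (hr : ∀ p : ℕ, p.Prime → p ≠ 2 → PRankLE p 2 G) :
    ∀ p : ℕ, p.Prime → p ≠ 2 → PRankLE p 2 (G ⧸ pCore 2 G) := by
  intro p hp hp2
  have : Fact p.Prime := ⟨hp⟩
  have : Fact (Nat.Prime 2) := ⟨Nat.prime_two⟩
  refine OddOrderLocal.RankQuot.pRankLE_quotient_of_not_dvd (pCore 2 G) ?_ (hr p hp hp2)
  obtain ⟨n, hn⟩ := IsPGroup.iff_card.1 (pCore_isPGroup (G := G) 2)
  rw [hn]
  intro h
  exact hp2 ((Nat.prime_dvd_prime_iff_eq hp Nat.prime_two).1 (hp.dvd_of_dvd_pow h))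

/-- **Distinct `𝒞`-components commute modulo `O_2(G)`.** -/
theorem commutator_le_pCore (hFT : Quat.FT.{0}) [Finite G]
    (hr : ∀ p : ℕ, p.Prime → p ≠ 2 → PRankLE p 2 G) {L M : Subgroup G} (hL : L ∈ calC G)
    (hM : M ∈ calC G) (hne : L ≠ M) : ⁅L, M⁆ ≤ pCore 2 G := by
  have hs := pCore_solvable (G := G)
  have h1 := calC_commutator_eq_bot hFT (rank_quot hr) (pCore_quotient_pCore 2) (calC_map hs hL) (calC_map hs hM)
    (calC_map_ne hs hL hM hne)
  rwa [← map_commutator, Subgroup.map_eq_bot_iff, QuotientGroup.ker_mk'] at h1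

theorem pCore_map_eq {L : Subgroup G} (hL : L.IsSubnormal) : (pCore 2 L).map L.subtype = L ⊓ pCore 2 G :=
  map_subtype_pCore_of_subnormal 2 hL

/-- **Part (2) of S1820.** -/
theorem commutator_le (hFT : Quat.FT.{0}) [Finite G]
    (hr : ∀ p : ℕ, p.Prime → p ≠ 2 → PRankLE p 2 G) {L M : Subgroup G} (hL : L ∈ calC G)
    (hM : M ∈ calC G) (hne : L ≠ M) :
    ⁅L, M⁆ ≤ (pCore 2 L).map L.subtype ⊓ (pCore 2 M).map M.subtype ∧
      (pCore 2 L).map L.subtype ⊓ (pCore 2 M).map M.subtype ≤ pCore 2 G := by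
  rw [pCore_map_eq hL.2.2.1, pCore_map_eq hM.2.2.1]
  have h1 := commutator_le_pCore hFT hr hL hM hne
  have h2 := Basic.commutator_le_inf_of_ne hL hM hne
  exact ⟨le_inf (le_inf (h2.trans inf_le_left) h1) (le_inf (h2.trans inf_le_right) h1),
    inf_le_left.trans inf_le_right⟩

end Cfsg.Agent.QTComp.Two
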